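import Mathlib

/-!
# The subgroup `3²` of `A₈` and two elements normalizing it
-/

set_option autoImplicit false

namespace Cfsg.Agent.H88.AltG2

/-- The four elements used in `A₈`. -/
def p8 (f g : Fin 8 → Fin 8) (h1 : ∀ i, g (f i) = i) (h2 : ∀ i, f (g i) = i) : Equiv.Perm (Fin 8) := ⟨f, g, h1, h2⟩

/-- `(0 1 2)`. -/
def x1 : alternatingGroup (Fin 8) :=
  ⟨p8 ![1, 2, 0, 3, 4, 5, 6, 7] ![2, 0, 1, 3, 4, 5, 6, 7] (by decide) (by decide),
    Equiv.Perm.mem_alternatingGroup.2 (by decide +kernel)⟩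

/-- `(3 4 5)`. -/
def x2 : alternatingGroup (Fin 8) :=
  ⟨p8 ![0, 1, 2, 4, 5, 3, 6, 7] ![0, 1, 2, 5, 3, 4, 6, 7] (by decide) (by decide),
    Equiv.Perm.mem_alternatingGroup.2 (by decide +kernel)⟩

/-- `(0 3)(1 4 2 5)`. -/
def aa : alternatingGroup (Fin 8) :=
  ⟨p8 ![3, 4, 5, 0, 2, 1, 6, 7] ![3, 5, 4, 0, 1, 2, 6, 7] (by decide) (by decide),
    Equiv.Perm.mem_alternatingGroup.2 (by decide +kernel)⟩

/-- `(1 6 2 7)(3 4)`, with square `(1 2)(6 7)`. -/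
def cc : alternatingGroup (Fin 8) :=
  ⟨p8 ![0, 6, 7, 4, 3, 5, 2, 1] ![0, 7, 6, 4, 3, 5, 1, 2] (by decide) (by decide),
    Equiv.Perm.mem_alternatingGroup.2 (by decide +kernel)⟩

/-- The nine elements of `⟨x1, x2⟩`. -/
def nine : List (alternatingGroup (Fin 8)) :=
  [1, x1, x1 * x1, x2, x2 * x2, x1 * x2, x1 * (x2 * x2), x1 * x1 * x2, x1 * x1 * (x2 * x2)]

theorem forall_nine {p : alternatingGroup (Fin 8) → Prop} [DecidablePred p]
    (h : (nine.all fun a => decide (p a)) = true) : ∀ a ∈ nine, p a :=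
  fun a ha => of_decide_eq_true (List.all_eq_true.1 h a ha)

theorem nine_mul : ∀ a ∈ nine, ∀ b ∈ nine, a * b ∈ nine := fun a ha =>
  forall_nine (p := fun b => a * b ∈ nine)
    (forall_nine (p := fun a => (nine.all fun b => decide (a * b ∈ nine)) = true) (by decide +kernel) a ha)

theorem nine_inv : ∀ a ∈ nine, a⁻¹ ∈ nine := forall_nine (by decide +kernel)

/-- The subgroup of order nine. -/
def Q8 : Subgroup (alternatingGroup (Fin 8)) where
  carrier := {x | x ∈ nine}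
  one_mem' := List.mem_cons_self
  mul_mem' {a b} ha hb := nine_mul a ha b hb
  inv_mem' {a} ha := nine_inv a ha

theorem card_Q8 : Nat.card Q8 = 9 := by
  have e : Fin nine.length ≃ {x // x ∈ nine} := List.Nodup.getEquiv nine (by decide +kernel)
  have e' : {x // x ∈ nine} ≃ Q8 := Equiv.refl _
  rw [← Nat.card_congr (e.trans e'), Nat.card_fin]
  rfl

theorem nine_conj_aa : ∀ x ∈ nine, aa * x * aa⁻¹ ∈ nine := forall_nine (by decide +kernel)

theorem nine_conj_cc : ∀ x ∈ nine, cc * cc * x * (cc * cc)⁻¹ ∈ nine :=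
  forall_nine (by decide +kernel)

theorem aa_inverts : ∀ y ∈ nine, aa ^ 6 * y = y * aa ^ 6 → y = 1 :=
  forall_nine (by decide +kernel)

theorem nine_pow : ∀ y ∈ nine, ∃ i j : Fin 3, y = x1 ^ i.val * x2 ^ j.val :=
  forall_nine (by decide +kernel)

theorem x1_mem : x1 ∈ nine := by decide +kernel

theorem x2_mem : x2 ∈ nine := by decide +kernel

theorem elt_facts : x1 ≠ 1 ∧ x2 ≠ 1 ∧ x1 * x2 ≠ 1 ∧ x1 * x2⁻¹ ≠ 1 ∧ x1 * x2 * x1⁻¹ * x2⁻¹ = 1 ∧
    x1 * (cc * cc * x1 * (cc * cc)⁻¹) = 1 ∧ x2⁻¹ * (cc * cc * x2 * (cc * cc)⁻¹) = 1 := by decide +kernel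

end Cfsg.Agent.H88.AltG2
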