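import Cfsg.Agent.H88.AltSec.D4Twist
import Cfsg.Agent.H88.AltSec.D8Rep

/-!
# Elements of order 3 of the twisted group of type D₄ over the twisted torus

A torus element fixed by the rotation is determined by one cube root of unity.  If it is conjugate to an element over
the rotation commuting with it, no element fixes the one and inverts the other: on the natural module such an element
would have determinant `-1`.
-/

set_option autoImplicit false
set_option maxRecDepth 100000

namespace Cfsg.Agent.H88.AltD4Twist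

open Cfsg.Lie Cfsg.Agent.H46 Cfsg.Agent.H47 Cfsg.Agent.H65 Cfsg.Agent.H88.ChevSylow
open scoped Matrix MatrixGroups

/-- The two rotations on the roots. -/
def rImg : Bool → ℕ → ℕ
  | false => fun r =>
    [14, 23, 15, 16, 5, 17, 19, 10, 11, 1, 20, 21, 2, 3, 22, 12, 13, 4, 6, 18, 7, 8, 0, 9].getD r 0
  | true => fun r =>
    [22, 9, 12, 13, 17, 4, 18, 20, 21, 23, 7, 8, 15, 16, 0, 2, 3, 5, 19, 6, 10, 11, 14, 1].getD r 0

/-- Their action on the coordinates. -/
def rSig : Bool → Fin 8 → Fin 8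
  | false => ![5, 2, 4, 3, 1, 6, 0, 7]
  | true => ![6, 4, 1, 3, 2, 0, 5, 7]

theorem moves_rot : ∀ b, Moves (rImg b) (rSig b) := by decide +kernel

theorem rSig_fix : ∀ b, rSig b 3 = 3 ∧ rSig b 7 = 7 ∧ ∀ i : Fin 8, i ≠ 3 → i ≠ 7 → rSig b i ≠ i := by decide +kernel

theorem rImg_facts : ∀ b, ∀ r : Fin 24, rImg b r.val < 24 ∧ rImg b (rImg (!b) r.val) = r.val := by decide +kernel

theorem rows_three : ∀ k : Fin twRowsD4.length,
    ((List.range 4).all fun i =>
      appT graphD4 goodD4 (List.replicate 3 (tWord graphD4 (twRowsD4.get k))).flatten (chevD4.simple i) ==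
        chevD4.simple i) = true →
    (((List.range 24).all fun r => appT graphD4 goodD4 (tWord graphD4 (twRowsD4.get k)) r == r) ||
      ((List.range 24).all fun r => appT graphD4 goodD4 (tWord graphD4 (twRowsD4.get k)) r == rImg false r) ||
      ((List.range 24).all fun r => appT graphD4 goodD4 (tWord graphD4 (twRowsD4.get k)) r == rImg true r)) = true := by
  decide +kernel

theorem rc_facts :
    (∀ j : Fin chevD4.rank, (goodD4.rc 22 j : ℤ) = 1) ∧
    (∀ j : Fin chevD4.rank, (goodD4.rc 6 j : ℤ) = [0, -1, -1, -1].getD j.val 0) ∧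
    (List.range 4).map chevD4.simple = [18, 14, 13, 12] ∧
    (List.range 24).map symD4.π = [0, 1, 6, 2, 7, 10, 3, 8, 4, 9, 11, 5, 18, 12, 14, 19, 15, 20, 13, 16, 21, 17, 22, 23] := by
  decide +kernel

theorem N_entries : (NZ 12 2 7 = -1 ∧ NZ 13 2 3 = 1 ∧ NZ 14 1 2 = 1 ∧ NZ 18 0 1 = 1) := by decide +kernel

theorem rot_simple : rImg false 18 = 6 ∧ rImg false 14 = 22 ∧ rImg true 6 = 18 ∧ rImg true 22 = 14 := by
  decide +kernel

variable {K : Type*} [Field K] [Fintype K] {Q : ℕ}

/-- The rotations are the elements of order three of the twisted Weyl group. -/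
theorem perm_rotation (f : K →+* K) {n : GL chevD4.Idx K} (hn : n ∈ (tdD4 f).N0)
    (h3 : goodD4.perm n ^ 3 = 1) : goodD4.perm n = 1 ∨ ∃ b, ∀ r, (goodD4.perm n r).val = rImg b r.val := by
  obtain ⟨w, hw⟩ := GraphData.perm_mem_N0 okD4 coxD4 f twRowsD4 twTreeD4 chkTwistD4 hn
  obtain ⟨k, hk⟩ := GraphData.exists_row okD4 coxD4 f twRowsD4 twTreeD4 chkTwistD4 w
  rw [hw, hk] at h3 ⊢
  set u := tWord graphD4 (twRowsD4.get k)
  have hu : ((List.range 4).all fun i =>
      appT graphD4 goodD4 (List.replicate 3 u).flatten (chevD4.simple i) == chevD4.simple i) = true := by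
    rw [List.all_eq_true]
    intro i hi
    rw [List.mem_range] at hi
    have e : graphD4.tPerm goodD4 (List.replicate 3 u).flatten = 1 := by
      rw [← h3, pow_three]
      simp only [List.replicate_succ, List.replicate_zero, List.flatten_cons, List.flatten_nil, List.append_nil,
        GraphData.tPerm_append okD4]
    have e2 := GraphData.coe_tPerm okD4 (List.replicate 3 u).flatten (goodD4.simpleF ⟨i, hi⟩)
    rw [e] at e2
    exact beq_iff_eq.2 e2.symm
  have h := rows_three k hu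
  simp only [Bool.or_eq_true, List.all_eq_true, List.mem_range, beq_iff_eq] at h
  rcases h with (h | h) | h
  · refine Or.inl (Equiv.ext fun r => Fin.ext ?_)
    rw [GraphData.coe_tPerm okD4]
    exact h r.val r.2
  · exact Or.inr ⟨false, fun r => by rw [GraphData.coe_tPerm okD4]; exact h r.val r.2⟩
  · exact Or.inr ⟨true, fun r => by rw [GraphData.coe_tPerm okD4]; exact h r.val r.2⟩

/-- The values on the simple roots determine those on all roots. -/
theorem torusVal_eq (z : Fin chevD4.rank → Kˣ) (s : ℕ) :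
    goodD4.torusVal z s = ∏ j : Fin chevD4.rank, goodD4.torusVal z (chevD4.simple j) ^ goodD4.rc s j := by
  have e : ∀ k : Fin chevD4.rank, goodD4.cartForm k (goodD4.rc s) = ∑ j, cartT chevD4 goodD4.tab j k * goodD4.rc s j :=
    fun k => by simp only [Good.cartForm, cartT]; exact Finset.sum_congr rfl fun j _ => mul_comm _ _
  simp only [← goodD4.act_cartT_apply, act, ← Finset.prod_zpow, ← zpow_mul]
  rw [Finset.prod_comm, Good.torusVal]
  refine Finset.prod_congr rfl fun k _ => ?_
  rw [e k]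
  generalize (Finset.univ : Finset (Fin chevD4.rank)) = S
  induction S using Finset.induction_on with
  | empty => simp
  | insert a S ha ih => rw [Finset.prod_insert ha, Finset.sum_insert ha, zpow_add, ih]

/-- A monomial element commuting with a torus element preserves its values. -/
theorem torusVal_perm {n : GL chevD4.Idx K} (hn : n ∈ chevD4.monomialSubgroup K) {z : Fin chevD4.rank → Kˣ}
    (hc : n * goodD4.torus z = goodD4.torus z * n) (r : Fin chevD4.nroots) :
    goodD4.torusVal z (goodD4.perm n r) = goodD4.torusVal z r := by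
  obtain ⟨c, hc'⟩ := goodD4.conj_xg_eq hn r
  have e1 : n * (goodD4.torus z * goodD4.xg r (1 : K) * (goodD4.torus z)⁻¹) * n⁻¹ =
      goodD4.torus z * (n * goodD4.xg r (1 : K) * n⁻¹) * (goodD4.torus z)⁻¹ := by
    calc _ = (n * goodD4.torus z) * goodD4.xg r (1 : K) * (n * goodD4.torus z)⁻¹ := by group
      _ = _ := by rw [hc]; group
  rw [goodD4.torus_conj_xg z r.2, hc', hc', goodD4.torus_conj_xg z (goodD4.perm n r).2] at e1
  have e2 := goodD4.xg_injective (goodD4.perm n r).2 e1
  simp only [mul_one] at e2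
  exact Units.ext (mul_left_cancel₀ c.ne_zero ((e2.trans (mul_comm _ _)).symm))

/-- The values of a twisted torus element on a root and on its image. -/
theorem torusVal_twist (f : K →+* K) {z : Fin chevD4.rank → Kˣ} (ht : goodD4.torus z ∈ (tdD4 f).G1) {r : ℕ}
    (hr : r < 24) : (goodD4.torusVal z (symD4.π r) : K) = f (goodD4.torusVal z r) := by
  have hfix : goodD4.twistHom okD4.check f (goodD4.torus z) = goodD4.torus z := (tdD4 f).G1_le_fixed ht
  have hπ : ∀ s : Fin 24, symD4.π s.val < 24 := by decide +kernel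
  have e := congrArg (goodD4.twistHom okD4.check f) (goodD4.torus_conj_xg z (show r < chevD4.nroots from hr) 1)
  rw [map_mul, map_mul, map_inv, hfix, goodD4.twistHom_xg _ f hr, goodD4.twistHom_xg _ f hr,
    goodD4.torus_conj_xg z (show symD4.π r < chevD4.nroots from hπ ⟨r, hr⟩)] at e
  have e2 := goodD4.xg_injective (hπ ⟨r, hr⟩) e
  rw [mul_one, map_one, mul_one, mul_comm] at e2
  have hε : (symD4.ε r : K) ≠ 0 := by
    have h : ∀ s : Fin 24, symD4.ε s.val = 1 ∨ symD4.ε s.val = -1 := by decide +kernel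
    rcases h ⟨r, hr⟩ with h | h <;> simp [h]
  exact mul_left_cancel₀ hε e2

/-- A torus element of 3-power order fixed by a rotation. -/
theorem fixed_values (f : K →+* K) (hf : ∀ x, f x = x ^ Q) (hQ : Q % 3 = 1) {z : Fin chevD4.rank → Kˣ}
    (ht : goodD4.torus z ∈ (tdD4 f).G1) {k : ℕ} (hk : goodD4.torus z ^ 3 ^ k = 1) {n : GL chevD4.Idx K}
    (hn : n ∈ chevD4.monomialSubgroup K) {b : Bool} (hb : ∀ r, (goodD4.perm n r).val = rImg b r.val)
    (hc : n * goodD4.torus z = goodD4.torus z * n) :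
    (goodD4.torusVal z 18 : K) ^ 3 = 1 ∧ goodD4.torusVal z 14 = 1 ∧
      goodD4.torusVal z 13 = goodD4.torusVal z 18 ∧ goodD4.torusVal z 12 = goodD4.torusVal z 18 := by
  obtain ⟨h22', h6', hsimp, hπ⟩ := rc_facts
  have h22 : ∀ j : Fin 4, goodD4.rc 22 j = 1 := h22'
  have h6 : ∀ j : Fin 4, goodD4.rc 6 j = [0, -1, -1, -1].getD j.val 0 := h6'
  have hs : ∀ j, (hj : j < 4) → chevD4.simple j = [18, 14, 13, 12][j] := fun j hj => by
    have e := congrArg (fun L : List ℕ => L[j]?) hsimp
    simpa [List.getElem?_map, List.getElem?_range hj, List.getElem?_eq_getElem (show j < [18, 14, 13, 12].length from hj)] using e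
  set V := goodD4.torusVal z with hV
  have hinv : ∀ r, r < 24 → V (rImg b r) = V r := fun r hr => by
    have := torusVal_perm hn hc ⟨r, hr⟩
    rwa [hb] at this
  have hA : V 6 = V 18 ∧ V 22 = V 14 := by
    obtain ⟨h1, h2, h3, h4⟩ := rot_simple
    cases b
    · exact ⟨h1 ▸ hinv 18 (by norm_num), h2 ▸ hinv 14 (by norm_num)⟩
    · exact ⟨(h3 ▸ hinv 6 (by norm_num)).symm, (h4 ▸ hinv 22 (by norm_num)).symm⟩
  have e22 : V 22 = V 18 * V 14 * V 13 * V 12 := by
    rw [hV, torusVal_eq z 22]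
    show ∏ j : Fin 4, _ = _
    rw [Fin.prod_univ_four, h22, h22, h22, h22]
    simp [hs]
  have e6 : V 6 = (V 14 * V 13 * V 12)⁻¹ := by
    rw [hV, torusVal_eq z 6]
    show ∏ j : Fin 4, _ = _
    rw [Fin.prod_univ_four, h6, h6, h6, h6]
    simp [hs, mul_comm, mul_left_comm]
  have hN : V 18 * V 13 * V 12 = 1 := by
    have := hA.2
    rw [e22] at this
    exact mul_right_cancel (b := V 14) (by rw [one_mul]; nth_rewrite 2 [← this]; rw [mul_right_comm (V 18) (V 14), mul_right_comm (V 18 * V 13) (V 14)])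
  have h14 : V 14 = 1 := by
    have := hA.1
    rw [e6, inv_eq_iff_mul_eq_one] at this
    calc V 14 = V 14 * (V 18 * V 13 * V 12) := by rw [hN, mul_one]
      _ = V 14 * V 13 * V 12 * V 18 := by ac_rfl
      _ = 1 := this
  have hπe : symD4.π 18 = 13 ∧ symD4.π 13 = 12 := by decide +kernel
  have h13 : (V 13 : K) = (V 18 : K) ^ Q := by rw [hV, ← hπe.1, torusVal_twist f ht (by norm_num), hf]
  have h12 : (V 12 : K) = (V 13 : K) ^ Q := by rw [hV, ← hπe.2, torusVal_twist f ht (by norm_num), hf]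
  set x := (V 18 : K)
  have hx : x ^ (Q ^ 2 + Q + 1) = 1 := by
    have e := congrArg Units.val hN
    rw [Units.val_mul, Units.val_mul, h13, h12, h13, Units.val_one] at e
    rw [← e]; ring
  have hxk : x ^ 3 ^ k = 1 := by
    rw [← map_pow, goodD4.torus_eq_one_iff] at hk
    have h18 := hk 18 (by decide +kernel)
    have e : goodD4.torusVal (z ^ 3 ^ k) 18 = V 18 ^ 3 ^ k := by
      rw [hV]; exact map_pow (MonoidHom.mk' (fun z : Fin chevD4.rank → Kˣ => goodD4.torusVal z 18)
        (fun u v => goodD4.torusVal_mul u v 18)) z (3 ^ k)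
    rw [e] at h18
    simpa using congrArg Units.val h18
  have hx3 : x ^ 3 = 1 := by
    have hg := pow_gcd_eq_one.2 ⟨hx, hxk⟩
    obtain ⟨l, -, hl⟩ := (Nat.dvd_prime_pow Nat.prime_three).1 (Nat.gcd_dvd_right (Q ^ 2 + Q + 1) (3 ^ k))
    have hle : l ≤ 1 := by
      by_contra hcon
      have h9 : 9 ∣ Q ^ 2 + Q + 1 :=
        ((pow_dvd_pow 3 (show 2 ≤ l by omega)).trans (dvd_of_eq hl.symm)).trans (Nat.gcd_dvd_left _ _)
      obtain ⟨t, ht⟩ : ∃ t, Q = 3 * t + 1 := ⟨Q / 3, by omega⟩
      rw [ht, show (3 * t + 1) ^ 2 + (3 * t + 1) + 1 = 9 * (t ^ 2 + t) + 3 by ring] at h9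
      omega
    rw [hl] at hg
    rcases Nat.le_one_iff_eq_zero_or_eq_one.1 hle with rfl | rfl
    · rw [pow_zero, pow_one] at hg; rw [hg, one_pow]
    · simpa using hg
  have hxQ : x ^ Q = x := by
    rw [← Nat.div_add_mod Q 3, hQ, pow_add, pow_mul, hx3, one_pow, one_mul, pow_one]
  refine ⟨hx3, h14, Units.ext (h13.trans hxQ), Units.ext ?_⟩
  rw [h12, h13, hxQ]; exact hxQ

/-- The torus elements of 3-power order of the twisted group fixed by a rotation: at most three. -/
theorem card_fixed_le (f : K →+* K) (hf : ∀ x, f x = x ^ Q) (hQ : Q % 3 = 1) {n : GL chevD4.Idx K}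
    (hn : n ∈ chevD4.monomialSubgroup K) {b : Bool} (hb : ∀ r, (goodD4.perm n r).val = rImg b r.val)
    (S : Finset (GL chevD4.Idx K))
    (hS : ∀ t ∈ S, t ∈ chevD4.diagonalSubgroup K ∧ t ∈ (tdD4 f).G1 ∧ n * t = t * n ∧ ∃ k, t ^ 3 ^ k = 1) :
    S.card ≤ 3 := by
  classical
  choose z hz using fun t : S => goodD4.mem_diagonal.1 (hS t t.2).1
  have hval : ∀ t : S, (goodD4.torusVal (z t) 18 : K) ^ 3 = 1 ∧ goodD4.torusVal (z t) 14 = 1 ∧
      goodD4.torusVal (z t) 13 = goodD4.torusVal (z t) 18 ∧ goodD4.torusVal (z t) 12 = goodD4.torusVal (z t) 18 :=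
    fun t => by
      obtain ⟨-, h1, h2, k, h3⟩ := hS t t.2
      rw [hz t] at h1 h2 h3
      exact fixed_values f hf hQ h1 h3 hn hb h2
  let φ : S → K := fun t => (goodD4.torusVal (z t) 18 : K)
  have hφ : Function.Injective φ := by
    intro t t' h
    have h18 : goodD4.torusVal (z t) 18 = goodD4.torusVal (z t') 18 := Units.ext h
    refine Subtype.ext ?_
    rw [hz t, hz t']
    have h1 : z t * (z t')⁻¹ ∈ (goodD4.torus (F := K)).ker := by
      rw [goodD4.mem_ker_torus]
      funext j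
      rw [goodD4.act_cartT_apply, goodD4.torusVal_mul, Pi.one_apply]
      have hw : goodD4.torusVal (z t')⁻¹ (chevD4.simple j) = (goodD4.torusVal (z t') (chevD4.simple j))⁻¹ := by
        simp [Good.torusVal, Finset.prod_inv_distrib, inv_zpow]
      rw [hw, mul_inv_eq_one]
      obtain ⟨-, a1, a2, a3⟩ := hval t
      obtain ⟨-, b1, b2, b3⟩ := hval t'
      have hj : (chevD4.simple j.val) = [18, 14, 13, 12].getD j.val 0 := by
        have : ∀ i : Fin 4, chevD4.simple i.val = [18, 14, 13, 12].getD i.val 0 := by decide +kernel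
        exact this j
      rw [hj]
      match j with
      | ⟨0, _⟩ => exact h18
      | ⟨1, _⟩ => exact a1.trans b1.symm
      | ⟨2, _⟩ => exact a2.trans (h18.trans b2.symm)
      | ⟨3, _⟩ => exact a3.trans (h18.trans b3.symm)
      | ⟨n + 4, h⟩ => exact absurd (show n + 4 < 4 from h) (by omega)
    rwa [MonoidHom.mem_ker, map_mul, map_inv, mul_inv_eq_one] at h1
  have h1 : (Finset.univ.image φ) ⊆ (Polynomial.nthRootsFinset 3 (1 : K)) := by
    intro y hy
    obtain ⟨t, -, rfl⟩ := Finset.mem_image.1 hy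
    exact (Polynomial.mem_nthRootsFinset (by norm_num) _).2 (hval t).1
  calc S.card = (Finset.univ.image φ).card := by rw [Finset.card_image_of_injective _ hφ]; simp
    _ ≤ (Polynomial.nthRootsFinset 3 (1 : K)).card := Finset.card_le_card h1
    _ ≤ 3 := le_trans (by rw [Polynomial.nthRootsFinset_def]; exact Multiset.toFinset_card_le _)
      (Polynomial.card_nthRoots 3 (1 : K))

/-- The classes of coordinates. -/
def blocks : Fin 2 ⊕ (Fin 3 ⊕ Fin 3) ≃ Fin 8 where
  toFun := Sum.elim ![3, 7] (Sum.elim ![1, 2, 4] ![5, 6, 0])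
  invFun := ![Sum.inr (Sum.inr 2), Sum.inr (Sum.inl 0), Sum.inr (Sum.inl 1), Sum.inl 0, Sum.inr (Sum.inl 2),
    Sum.inr (Sum.inr 0), Sum.inr (Sum.inr 1), Sum.inl 1]
  left_inv := by decide
  right_inv := by decide

/-- No element fixes `t` and inverts `w` modulo `⟨t⟩`. -/
theorem no_reflection (h5 : (5 : K) = 0) (f : K →+* K) (hf : ∀ x, f x = x ^ Q)
    (hK : Fintype.card K = Q ^ 3) (hQ : Q % 3 = 1) {t w h g : ↥(twistedD4 K Q)}
    (ht : t ∈ torusT K Q) (ht3 : t ^ 3 = 1) (ht1 : t ≠ 1) (hw : (w : GL chevD4.Idx K) ∈ chevD4.monomialSubgroup K)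
    {b : Bool} (hb : ∀ r, (goodD4.perm (w : GL chevD4.Idx K) r).val = rImg b r.val) (hwt : w * t = t * w)
    (hconj : h * t = w * h) (hgt : g * t = t * g) (k : ℕ) (hgw : w * g * w = t ^ k * g) : False := by
  classical
  have h2 : (2 : K) ≠ 0 := fun h => one_ne_zero (α := K) (by linear_combination h5 - (2 : K) * h)
  have h3 : (3 : K) ≠ 0 := fun h => one_ne_zero (α := K) (by linear_combination (2 : K) * h - h5)
  have h16 : (16 : K) ≠ 0 := fun h => one_ne_zero (α := K) (by linear_combination h - (3 : K) * h5)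
  set ι := Subgroup.inclusion (twistedD4_le (K := K) Q)
  obtain ⟨z, hz⟩ := goodD4.mem_diagonal.1 (show (t : GL chevD4.Idx K) ∈ chevD4.diagonalSubgroup K from ht)
  have htG : goodD4.torus z ∈ (tdD4 f).G1 := by rw [← hz, ← twistedD4_eq f hf hK]; exact t.2
  have hc : (w : GL chevD4.Idx K) * goodD4.torus z = goodD4.torus z * (w : GL chevD4.Idx K) := by
    rw [← hz]; exact congrArg Subtype.val hwt
  obtain ⟨hω, h14, h13, h12⟩ := fixed_values f hf hQ htG (k := 1)
    (by rw [← hz, pow_one, ← Subgroup.coe_pow, ht3]; rfl) hw hb hc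
  set ω := (goodD4.torusVal z 18 : K)
  have hω1 : ω ≠ 1 := fun e => by
    refine ht1 (Subtype.ext (hz.trans ?_))
    have h1 : z ∈ (goodD4.torus (F := K)).ker := by
      rw [goodD4.mem_ker_torus]
      funext j
      rw [goodD4.act_cartT_apply, Pi.one_apply]
      have e18 : goodD4.torusVal z 18 = 1 := Units.ext e
      have hj : ∀ i : Fin 4, chevD4.simple i.val = [18, 14, 13, 12].getD i.val 0 := by decide +kernel
      rw [hj j]
      match j with
      | ⟨0, _⟩ => exact e18
      | ⟨1, _⟩ => exact h14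
      | ⟨2, _⟩ => exact h13.trans e18
      | ⟨3, _⟩ => exact h12.trans e18
      | ⟨n + 4, h⟩ => exact absurd (show n + 4 < 4 from h) (by omega)
    exact h1
  have hω2 : ω ^ 2 + ω + 1 = 0 :=
    (mul_eq_zero.1 (show (ω - 1) * (ω ^ 2 + ω + 1) = 0 by linear_combination hω)).resolve_left (sub_ne_zero.2 hω1)
  -- the lift of t is diagonal
  obtain ⟨Mt₀, hMt₀⟩ := exists_lift (ι t)
  have hrootT : ∀ r, r < 24 → Mt₀ * N K r = (goodD4.torusVal z r : K) • (N K r * Mt₀) := fun r hr => by
    refine hMt₀.conj_root h16 hr hr ?_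
    show (t : GL chevD4.Idx K) * _ * (t : GL chevD4.Idx K)⁻¹ = _
    rw [hz, goodD4.torus_conj_xg z (show r < chevD4.nroots from hr), mul_one]
  have hT0 := moves_single (by rw [hMt₀.det]; exact one_ne_zero) moves_id (fun r => (goodD4.torusVal z r : K))
    (fun r _ => Units.ne_zero _) hrootT
  have hToff : ∀ i j, i ≠ j → Mt₀ i j = 0 := fun i j hij => monomial_entry hT0 hij
  set d : Fin 8 → K := fun i => Mt₀ i i
  have hedge : ∀ (r : ℕ) (p q : Fin 8), r < 24 → N K r p q ≠ 0 → d p = (goodD4.torusVal z r : K) * d q := by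
    intro r p q hr hne
    have e := congrFun (congrFun (hrootT r hr) p) q
    rw [Matrix.smul_apply, Matrix.mul_apply, Matrix.mul_apply,
      Finset.sum_eq_single p (fun x _ hx => by rw [hToff p x hx.symm, zero_mul]) (by simp),
      Finset.sum_eq_single q (fun x _ hx => by rw [hToff x q hx, mul_zero]) (by simp), smul_eq_mul] at e
    exact mul_right_cancel₀ hne (e.trans (by ring))
  obtain ⟨n12, n13, n14, n18⟩ := N_entries
  have e27 : d 2 = ω * d 7 := by
    rw [hedge 12 2 7 (by norm_num) (by simp [N, n12]), h12]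
  have e23 : d 2 = ω * d 3 := by
    rw [hedge 13 2 3 (by norm_num) (by simp [N, n13]), h13]
  have e12 : d 1 = d 2 := by
    rw [hedge 14 1 2 (by norm_num) (by simp [N, n14]), h14, Units.val_one, one_mul]
  have e01 : d 0 = ω * d 1 := hedge 18 0 1 (by norm_num) (by simp [N, n18])
  have hop : ∀ i, d i * d (op8 i) = 1 := fun i => by
    have e := congrFun (congrFun hMt₀.isom i) (op8 i)
    rw [Matrix.mul_apply, Finset.sum_eq_single (op8 i) (fun x _ hx => by rw [hToff x _ hx, mul_zero]) (by simp),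
      Matrix.mul_apply, Finset.sum_eq_single i (fun x _ hx => by
        rw [Matrix.transpose_apply, hToff x i hx, zero_mul]) (by simp), Matrix.transpose_apply] at e
    simpa [J] using e
  have hω0 : ω ≠ 0 := Units.ne_zero _
  have e37 : d 7 = d 3 := mul_left_cancel₀ hω0 (e27.symm.trans e23)
  have hd3 : d 3 * d 3 = 1 := by
    have := hop 3
    rwa [show op8 3 = 7 by decide, e37] at this
  set Dt := Matrix.diagonal ![ω ^ 2, ω, ω, 1, ω, ω ^ 2, ω ^ 2, 1]
  have hMt : Mt₀ = d 3 • Dt := by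
    ext i j
    rcases eq_or_ne i j with rfl | hij
    · have a4 := hop 0; have a5 := hop 1; have a6 := hop 2
      rw [show op8 0 = 4 by decide] at a4
      rw [show op8 1 = 5 by decide] at a5
      rw [show op8 2 = 6 by decide] at a6
      rw [e01, e12, e23] at a4; rw [e12, e23] at a5; rw [e23] at a6
      show d i = _
      fin_cases i <;> simp only [Dt, Matrix.smul_apply, Matrix.diagonal_apply_eq, smul_eq_mul]
      · simp [e01, e12, e23]; ring
      · simp [e12, e23]; ring
      · simp [e23]; ring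
      · simp
      · simp; linear_combination (ω * d 3) * a4 + (d 4 * (-(1 : K))) * hω + (-(d 4 * ω ^ 3)) * hd3
      · simp; linear_combination (ω ^ 2 * d 3) * a5 + (d 5 * (-(1 : K))) * hω + (-(d 5 * ω ^ 3)) * hd3
      · simp; linear_combination (ω ^ 2 * d 3) * a6 + (d 6 * (-(1 : K))) * hω + (-(d 6 * ω ^ 3)) * hd3
      · simp [e37]
    · simp [hToff i j hij, Dt, hij]
  have hdsq : d 3 = 1 ∨ d 3 = -1 := mul_self_eq_one_iff.1 hd3
  have htr : Mt₀.trace = -d 3 := by
    rw [hMt, Matrix.trace_smul, Matrix.trace_diagonal, Fin.sum_univ_eight, smul_eq_mul]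
    simp
    linear_combination (3 * d 3) * hω2
  -- the lift of w
  obtain ⟨Mw, hMw⟩ := exists_lift (ι w)
  have hW0 : ∀ a, Mw * Matrix.single a a 1 = Matrix.single (rSig b a) (rSig b a) 1 * Mw := by
    choose c hc' using fun r : Fin chevD4.nroots => goodD4.conj_xg_eq hw r
    refine moves_single (by rw [hMw.det]; exact one_ne_zero) (moves_rot b)
      (fun r => if hr : r < 24 then (c ⟨r, hr⟩ : K) else 1) (fun r hr => by rw [dif_pos hr]; exact Units.ne_zero _)
      fun r hr => ?_
    rw [dif_pos hr]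
    refine hMw.conj_root h16 hr (rImg_facts b ⟨r, hr⟩).1 ?_
    show (w : GL chevD4.Idx K) * _ * (w : GL chevD4.Idx K)⁻¹ = _
    rw [hc' ⟨r, hr⟩ 1, mul_one, hb]
  obtain ⟨hs3, hs7, hsne⟩ := rSig_fix b
  have hWoff : ∀ i a, i ≠ rSig b a → Mw i a = 0 := fun i a h => monomial_entry hW0 h
  set c := Mw 3 3
  have hWrow : ∀ j, j ≠ 3 → Mw 3 j = 0 := fun j hj => hWoff 3 j fun e => by
    have hinj : Function.Injective (rSig b) := by cases b <;> decide
    exact hj (hinj (hs3.symm ▸ e.symm))
  have hWrow7 : ∀ j, j ≠ 7 → Mw 7 j = 0 := fun j hj => hWoff 7 j fun e => by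
    have hinj : Function.Injective (rSig b) := by cases b <;> decide
    exact hj (hinj (hs7.symm ▸ e.symm))
  have hc7 : c * Mw 7 7 = 1 := by
    have e := congrFun (congrFun hMw.isom 3) 7
    rw [Matrix.mul_apply, Finset.sum_eq_single 7 (fun x _ hx => by rw [hWoff x 7 (hs7.symm ▸ hx), mul_zero]) (by simp),
      Matrix.mul_apply, Finset.sum_eq_single 3 (fun x _ hx => by
        rw [Matrix.transpose_apply, hWoff x 3 (hs3.symm ▸ hx), zero_mul]) (by simp), Matrix.transpose_apply] at e
    simpa [J, show op8 3 = 7 by decide] using e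
  have hWtr : Mw.trace = c + Mw 7 7 := by
    show ∑ i, Mw i i = _
    rw [Finset.sum_eq_add 3 7 (by decide) (fun i _ hi => hWoff i i (Ne.symm (hsne i hi.1 hi.2))) (by simp) (by simp)]
  obtain ⟨Mh, hMh⟩ := exists_lift (ι h)
  have hc2 : c ^ 2 ≠ 1 ∧ c ^ 2 ≠ -1 := by
    obtain ⟨s, hs, e⟩ : ∃ s : K, (s = 1 ∨ s = -1) ∧ Mw * Mh = s • (Mh * Mt₀) := by
      rcases (hMh.mul hMt₀).unique (show Lift (ι h * ι t) (Mw * Mh) by
        rw [← map_mul, hconj, map_mul]; exact hMw.mul hMh) with e | e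
      · exact ⟨1, Or.inl rfl, by rw [one_smul, e]⟩
      · exact ⟨-1, Or.inr rfl, by rw [neg_one_smul, e]⟩
    have hu : IsUnit Mh.det := by rw [hMh.det]; exact isUnit_one
    have e2 : Mw.trace = s * Mt₀.trace := by
      have := congrArg (fun A => (A * Mh⁻¹).trace) e
      simp only [mul_assoc, Matrix.mul_nonsing_inv _ hu, mul_one, smul_mul_assoc, Matrix.trace_smul, smul_eq_mul] at this
      rw [this, Matrix.trace_mul_comm Mh, mul_assoc, Matrix.nonsing_inv_mul _ hu, mul_one]
    obtain ⟨u, hu1, hu⟩ : ∃ u : K, (u = 1 ∨ u = -1) ∧ c + Mw 7 7 = u := by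
      refine ⟨s * -d 3, ?_, by rw [← hWtr, e2, htr]⟩
      rcases hs with rfl | rfl <;> rcases hdsq with h | h <;> simp [h]
    have hsq : c ^ 2 + 1 = u * c := by linear_combination c * hu - hc7
    have hu2 : u ^ 2 = 1 := by rcases hu1 with rfl | rfl <;> ring
    have hc0 : c ≠ 0 := left_ne_zero_of_mul_eq_one hc7
    refine ⟨fun h => ?_, fun h => ?_⟩
    · have h4 : (2 : K) = u * c := by linear_combination hsq - h
      have : (3 : K) = 0 := by linear_combination (2 + u * c) * h4 + c ^ 2 * hu2 + h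
      exact h3 this
    · have : u * c = 0 := by linear_combination h - hsq
      rcases hu1 with rfl | rfl <;> simp [hc0] at this
  -- the lift of g
  obtain ⟨B, hB⟩ := exists_lift (ι g)
  have hBcomm : B * Mt₀ = Mt₀ * B := by
    rcases (hMt₀.mul hB).unique (show Lift (ι t * ι g) (B * Mt₀) by
      rw [← map_mul, ← hgt, map_mul]; exact hB.mul hMt₀) with e | e
    · exact e
    · exfalso
      have hu : IsUnit B.det := by rw [hB.det]; exact isUnit_one
      have := congrArg (fun A => (B⁻¹ * A).trace) e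
      simp only [← mul_assoc, Matrix.nonsing_inv_mul _ hu, one_mul, mul_neg, Matrix.trace_neg] at this
      rw [Matrix.trace_mul_cycle, Matrix.mul_nonsing_inv _ hu, one_mul, htr] at this
      have h' : (2 : K) * d 3 = 0 := by linear_combination -this
      exact (mul_ne_zero h2 (left_ne_zero_of_mul_eq_one hd3)) h'
  set δ : Fin 8 → K := ![ω ^ 2, ω, ω, 1, ω, ω ^ 2, ω ^ 2, 1]
  have hBz : ∀ i j, δ i ≠ δ j → B i j = 0 := fun i j hne => by
    have e := congrFun (congrFun hBcomm i) j
    rw [hMt, mul_smul_comm, smul_mul_assoc, Matrix.smul_apply, Matrix.smul_apply, smul_eq_mul, smul_eq_mul,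
      Matrix.mul_diagonal, Matrix.diagonal_mul] at e
    have e' := mul_left_cancel₀ (left_ne_zero_of_mul_eq_one hd3) e
    by_contra h0
    exact hne (mul_right_cancel₀ h0 ((e'.symm).trans (mul_comm _ _)))
  have hMk : ∀ j : ℕ, Lift (ι t ^ (j + 1)) (Mt₀ ^ (j + 1)) := fun j => by
    induction j with
    | zero => simpa using hMt₀
    | succ j ih => rw [pow_succ, pow_succ Mt₀]; exact ih.mul hMt₀
  obtain ⟨s, e⟩ : ∃ s : K, (s = 1 ∨ s = -1) ∧ Mw * B * Mw = s • (Mt₀ ^ (k + 3) * B) := by
    have hl : Lift (ι t ^ (k + 2 + 1) * ι g) (Mt₀ ^ (k + 2 + 1) * B) := (hMk (k + 2)).mul hB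
    rcases hl.unique (show Lift (ι t ^ (k + 2 + 1) * ι g) (Mw * B * Mw) by
      rw [← map_pow, ← map_mul, show k + 2 + 1 = k + 3 from rfl, pow_add, ht3, mul_one, ← hgw, map_mul, map_mul]
      exact (hMw.mul hB).mul hMw) with e | e
    · exact ⟨1, Or.inl rfl, by rw [one_smul, e]⟩
    · exact ⟨-1, Or.inr rfl, by rw [neg_one_smul, e]⟩
  obtain ⟨hs', e⟩ := e
  have hpd : ∀ i j : Fin 8, δ i = 1 → (Mt₀ ^ (k + 3) * B) i j = d 3 ^ (k + 3) * B i j := fun i j hi => by
    rw [hMt, smul_pow, Matrix.diagonal_pow, smul_mul_assoc, Matrix.smul_apply, Matrix.diagonal_mul, smul_eq_mul,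
      Pi.pow_apply, show (![ω ^ 2, ω, ω, 1, ω, ω ^ 2, ω ^ 2, 1] : Fin 8 → K) i = 1 from hi, one_pow, one_mul]
  obtain ⟨σ, hσ, hσe⟩ : ∃ σ : K, (σ = 1 ∨ σ = -1) ∧ s * d 3 ^ (k + 3) = σ := by
    rcases neg_one_pow_eq_or K (k + 3) with h | h <;>
      rcases hs' with rfl | rfl <;> rcases hdsq with h' | h' <;> refine ⟨_, ?_, rfl⟩ <;> simp [h, h']
  have hentry : ∀ i : Fin 8, (∀ j, j ≠ i → Mw i j = 0) → (∀ j, j ≠ i → Mw j i = 0) → δ i = 1 →
      Mw i i * B i i * Mw i i = σ * B i i := fun i h1 h1' hi => by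
    have e' := congrFun (congrFun e i) i
    rw [Matrix.smul_apply, hpd i i hi, Matrix.mul_apply,
      Finset.sum_eq_single i (fun x _ hx => by rw [h1' x hx, mul_zero]) (by simp), Matrix.mul_apply,
      Finset.sum_eq_single i (fun x _ hx => by rw [h1 x hx, zero_mul]) (by simp), smul_eq_mul, ← mul_assoc, hσe] at e'
    exact e'
  have hB33 : B 3 3 = 0 := by
    have e' := hentry 3 hWrow (fun j hj => hWoff j 3 (hs3.symm ▸ hj)) rfl
    have : (c ^ 2 - σ) * B 3 3 = 0 := by linear_combination e'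
    refine (mul_eq_zero.1 this).resolve_left (sub_ne_zero.2 ?_)
    rcases hσ with rfl | rfl
    exacts [hc2.1, hc2.2]
  have hB77 : B 7 7 = 0 := by
    have e' := hentry 7 hWrow7 (fun j hj => hWoff j 7 (hs7.symm ▸ hj)) rfl
    have : (1 - σ * c ^ 2) * B 7 7 = 0 := by
      linear_combination c ^ 2 * e' - (Mw 7 7 * c * B 7 7 + B 7 7) * hc7
    refine (mul_eq_zero.1 this).resolve_left (sub_ne_zero.2 ?_)
    rcases hσ with rfl | rfl
    · rw [one_mul]; exact Ne.symm hc2.1
    · intro e''; exact hc2.2 (by linear_combination e'')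
  -- the determinant
  have hω2' : ω ^ 2 ≠ 1 := fun h => hω1 (by linear_combination hω - ω * h)
  have hne : ω ≠ ω ^ 2 := fun h => hω1 (by linear_combination (-ω ^ 2) * h - (ω - 1) * hω)
  have hiso := hB.isom
  have hJ : ∀ i j, (Bᵀ * J K * B) i j = ∑ a, B a i * B (op8 a) j := fun i j => by
    rw [mul_assoc, Matrix.mul_apply]
    refine Finset.sum_congr rfl fun a _ => ?_
    rw [Matrix.transpose_apply, Matrix.mul_apply, Finset.sum_eq_single (op8 a) (fun x _ hx => by simp [J, hx]) (by simp)]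
    simp [J]
  have hz' : ∀ i j : Fin 2 ⊕ (Fin 3 ⊕ Fin 3), δ (blocks i) ≠ δ (blocks j) → B (blocks i) (blocks j) = 0 :=
    fun i j => hBz _ _
  set A := B.submatrix (fun i => blocks (Sum.inr (Sum.inl i))) (fun i => blocks (Sum.inr (Sum.inl i)))
  set A' := B.submatrix (fun i => blocks (Sum.inr (Sum.inr i))) (fun i => blocks (Sum.inr (Sum.inr i)))
  set A0 := B.submatrix (fun i => blocks (Sum.inl i)) (fun i => blocks (Sum.inl i))
  have hδ : (∀ i, δ (blocks (Sum.inl i)) = 1) ∧ (∀ i, δ (blocks (Sum.inr (Sum.inl i))) = ω) ∧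
      ∀ i, δ (blocks (Sum.inr (Sum.inr i))) = ω ^ 2 := by
    refine ⟨fun i => ?_, fun i => ?_, fun i => ?_⟩ <;> fin_cases i <;> rfl
  have hblk : B.submatrix blocks blocks = Matrix.fromBlocks A0 0 0 (Matrix.fromBlocks A 0 0 A') := by
    ext i j
    rcases i with i | i | i <;> rcases j with j | j | j <;> simp only [Matrix.submatrix_apply, Matrix.fromBlocks_apply₁₁,
      Matrix.fromBlocks_apply₁₂, Matrix.fromBlocks_apply₂₁, Matrix.fromBlocks_apply₂₂, Matrix.zero_apply]
    any_goals rfl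
    all_goals
      refine hz' _ _ ?_
      simp only [hδ.1, hδ.2.1, hδ.2.2]
      first | exact hne | exact hne.symm | exact hω1 | exact Ne.symm hω1 | exact hω2' | exact Ne.symm hω2'
  have hAA : Aᵀ * A' = 1 := by
    ext i j
    have e' := congrFun (congrFun hiso (blocks (Sum.inr (Sum.inl i)))) (blocks (Sum.inr (Sum.inr j)))
    rw [hJ] at e'
    have hleft : ∑ a, B a (blocks (Sum.inr (Sum.inl i))) * B (op8 a) (blocks (Sum.inr (Sum.inr j))) = (Aᵀ * A') i j := by
      rw [← Equiv.sum_comp blocks, Fintype.sum_sum_type, Fintype.sum_sum_type, Matrix.mul_apply]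
      rw [Finset.sum_eq_zero, zero_add, Finset.sum_eq_zero (s := (Finset.univ : Finset (Fin 3)))
        (f := fun x => B (blocks (Sum.inr (Sum.inr x))) _ * _), add_zero]
      · refine Finset.sum_congr rfl fun x _ => ?_
        have : op8 (blocks (Sum.inr (Sum.inl x))) = blocks (Sum.inr (Sum.inr x)) := by revert x; decide
        rw [this]; rfl
      · intro x _
        rw [hz' _ _ (by rw [hδ.2.2, hδ.2.1]; exact hne.symm), zero_mul]
      · intro x _
        rw [hz' _ _ (by rw [hδ.1, hδ.2.1]; exact Ne.symm hω1), zero_mul]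
    rw [hleft] at e'
    rw [e']
    have hJij : ∀ i j : Fin 3, op8 (blocks (Sum.inr (Sum.inl i))) = blocks (Sum.inr (Sum.inr j)) ↔ i = j := by decide
    simp [J, Matrix.one_apply, ← hJij i j, eq_comm]
  have hdetA : A.det * A'.det = 1 := by
    have := congrArg Matrix.det hAA
    rwa [Matrix.det_mul, Matrix.det_transpose, Matrix.det_one] at this
  have h37 : B 3 7 * B 7 3 = 1 := by
    have e' := congrFun (congrFun hiso 3) 7
    rw [hJ, Finset.sum_eq_single 7 (fun x _ hx => ?_) (by simp), show op8 7 = 3 by decide] at e'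
    · rw [mul_comm, e']; simp [J, show op8 3 = 7 by decide]
    · rcases eq_or_ne x 3 with rfl | h3'
      · rw [hB33, zero_mul]
      · rw [hBz x 3 ?_, zero_mul]
        fin_cases x
        all_goals simp [δ] at hx h3' ⊢
        all_goals first | exact hω1 | exact hω2' | (refine ⟨hω1, fun h => hω2' ?_⟩; rw [h]; norm_num)
  have hdet := hB.det
  rw [← Matrix.det_submatrix_equiv_self blocks, hblk, Matrix.det_fromBlocks_zero₂₁, Matrix.det_fromBlocks_zero₂₁,
    hdetA, mul_one, Matrix.det_fin_two] at hdet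
  have hA0 : ∀ i j, A0 i j = B (blocks (Sum.inl i)) (blocks (Sum.inl j)) := fun i j => rfl
  simp only [hA0] at hdet
  change B 3 3 * B 7 7 - B 3 7 * B 7 3 = 1 at hdet
  rw [hB33, h37] at hdet
  exact h2 (by linear_combination -hdet)

end Cfsg.Agent.H88.AltD4Twist
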