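import Cfsg.Agent.H88.AltSec.AltG2
import Cfsg.Agent.H88.AltSec.D4Three

/-!
# Alternating sections of the twisted groups of type D₄

Outside characteristic 5 a 5-cycle has automizer of order 4, and the twisted Weyl group has exponent 6.  In
characteristic 5 a Sylow 3-subgroup of the normalizer of the twisted torus cannot cover the automizer of `3²` in `A₈`.
-/

set_option autoImplicit false
set_option maxRecDepth 100000

namespace Cfsg.Agent.H88.AltD4

open Cfsg.Lie Cfsg.Agent.H46 Cfsg.Agent.H65 Cfsg.Agent.H88.AutSec Cfsg.Agent.H88.AltD4Twist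
open Cfsg.Agent.H88.ChevSylow (exists_conj_le)
open Cfsg.Agent.H88.AltG2 (mem_normalizer_of_le exists_lift_subgroup card_le_three_mul central_three sq_mem_centralizer
  inv_comm_fixed p8 x1 x2 aa cc nine forall_nine Q8 card_Q8 nine_conj_aa nine_conj_cc aa_inverts nine_pow x1_mem x2_mem
  elt_facts)
open scoped Matrix MatrixGroups

/-- The rotations as permutations. -/
def sig (b : Bool) : Equiv.Perm (Fin chevD4.nroots) where
  toFun r := ⟨rImg b r.val, (rImg_facts b r).1⟩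
  invFun r := ⟨rImg (!b) r.val, (rImg_facts (!b) r).1⟩
  left_inv r := Fin.ext (by have := (rImg_facts (!b) r).2; rwa [Bool.not_not] at this)
  right_inv r := Fin.ext (rImg_facts b r).2

theorem sig_mul (b : Bool) : sig b * sig (!b) = 1 := Equiv.ext fun r => (sig b).right_inv r

/-- Four even permutations fixing the lines of `3²`. -/
def refl4 : List (alternatingGroup (Fin 8)) :=
  [⟨p8 ![0, 1, 2, 3, 5, 4, 7, 6] ![0, 1, 2, 3, 5, 4, 7, 6] (by decide) (by decide),
      Equiv.Perm.mem_alternatingGroup.2 (by decide +kernel)⟩,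
    ⟨p8 ![0, 2, 1, 3, 4, 5, 7, 6] ![0, 2, 1, 3, 4, 5, 7, 6] (by decide) (by decide),
      Equiv.Perm.mem_alternatingGroup.2 (by decide +kernel)⟩,
    ⟨p8 ![3, 4, 5, 0, 1, 2, 7, 6] ![3, 4, 5, 0, 1, 2, 7, 6] (by decide) (by decide),
      Equiv.Perm.mem_alternatingGroup.2 (by decide +kernel)⟩,
    ⟨p8 ![3, 5, 4, 0, 2, 1, 7, 6] ![3, 5, 4, 0, 2, 1, 7, 6] (by decide) (by decide),
      Equiv.Perm.mem_alternatingGroup.2 (by decide +kernel)⟩]

theorem refl_nine : ∀ g ∈ refl4, ∀ x ∈ nine, g * x * g⁻¹ ∈ nine := by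
  have h : (refl4.all fun g => nine.all fun x => decide (g * x * g⁻¹ ∈ nine)) = true := by decide +kernel
  intro g hg x hx
  exact of_decide_eq_true (List.all_eq_true.1 (List.all_eq_true.1 h g hg) x hx)

/-- For each nontrivial `y` one of them fixes `y` and inverts the image of `y` under the automizer. -/
theorem exists_refl : ∀ y ∈ nine, y = 1 ∨ ∃ g ∈ refl4, g * y * g⁻¹ = y ∧
    ∃ k : Fin 3, (aa * y * aa⁻¹) * g * (aa * y * aa⁻¹) = y ^ k.val * g := by
  have h : (nine.all fun y => decide (y = 1) || refl4.any fun g => decide (g * y * g⁻¹ = y) &&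
      (List.finRange 3).any fun k => decide ((aa * y * aa⁻¹) * g * (aa * y * aa⁻¹) = y ^ k.val * g)) = true := by
    decide +kernel
  intro y hy
  have h' := List.all_eq_true.1 h y hy
  simp only [Bool.or_eq_true, decide_eq_true_eq, List.any_eq_true, Bool.and_eq_true] at h'
  rcases h' with h' | ⟨g, hg, hgy, k, -, hk⟩
  · exact Or.inl h'
  · exact Or.inr ⟨g, hg, hgy, k, hk⟩

theorem nine_cube : ∀ y ∈ nine, y ^ 3 = 1 := forall_nine (by decide +kernel)

section index

variable {K : Type*} [Field K] [Fintype K] {Q : ℕ}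

theorem exists_rot_row : ∃ k : Fin twRowsD4.length, ((List.range 24).all fun r =>
    appT graphD4 goodD4 (tWord graphD4 (twRowsD4.get k)) r == rImg false r) = true := by decide +kernel

theorem mod_check : ∀ x : ZMod 9, x = 1 ∨ x = 4 ∨ x = 7 →
    x ^ 12 * (x + 1) * (x ^ 3 + 1) * (x ^ 8 + x ^ 4 + 1) ≠ 0 := by decide +kernel

/-- The normalizer of the twisted torus has index prime to 3. -/
theorem not_dvd_index_monomial (f : K →+* K) (hf : ∀ x, f x = x ^ Q) (hK : Fintype.card K = Q ^ 3) (hQ : Q % 3 = 1) :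
    ¬ 3 ∣ ((chevD4.monomialSubgroup K).subgroupOf (twistedD4 K Q)).index := by
  classical
  intro h3
  set T := torusT K Q with hT
  set N := (chevD4.monomialSubgroup K).subgroupOf (twistedD4 K Q) with hN
  have hTN : T ≤ N := fun x hx => by
    rw [hN, Subgroup.mem_subgroupOf, goodD4.monomial_eq]; exact Subgroup.mem_sup_left hx
  obtain ⟨k, hk⟩ := exists_rot_row
  simp only [List.all_eq_true, List.mem_range, beq_iff_eq] at hk
  set u := tWord graphD4 (twRowsD4.get k)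
  have hσ : graphD4.tPerm goodD4 u = sig false := Equiv.ext fun r => Fin.ext (by
    rw [GraphData.coe_tPerm okD4]; exact hk r.val r.2)
  have hk3 : 3 ∣ T.relIndex N := by
    let ψ : ↥N →* Equiv.Perm (Fin chevD4.nroots) :=
      { toFun := fun x => goodD4.perm ((x : ↥(twistedD4 K Q)) : GL chevD4.Idx K)
        map_one' := goodD4.perm_eq goodD4.monRel_one
        map_mul' := fun a b => goodD4.perm_mul a.2 b.2 }
    have hker : T.subgroupOf N = ψ.ker := by
      ext x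
      rw [MonoidHom.mem_ker, Subgroup.mem_subgroupOf, hT, torusT, Subgroup.mem_subgroupOf]
      exact (goodD4.perm_eq_one_iff x.2).symm
    rw [Subgroup.relIndex, hker, Subgroup.index_ker]
    have hn := GraphData.tRep_mem okD4 coxD4 f u
    have hnm := (tdD4 f).N0_le_N hn
    have hmem : (sig false)⁻¹ ∈ ψ.range :=
      ⟨⟨⟨_, by rw [twistedD4_eq f hf hK]; exact (tdD4 f).N0_le_G1 hn⟩, hnm⟩, by
        exact (GraphData.perm_tRep okD4 (F := K) u).trans (congrArg (·⁻¹) hσ)⟩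
    have ho : orderOf (sig false)⁻¹ = 3 := by
      rw [orderOf_inv]
      haveI : Fact (Nat.Prime 3) := ⟨Nat.prime_three⟩
      refine orderOf_eq_prime ?_ fun h1 => ?_
      · have e : ∀ r : Fin 24, rImg false (rImg false (rImg false r.val)) = r.val := by decide +kernel
        rw [pow_three]
        exact Equiv.ext fun r => Fin.ext (e r)
      · have h7 := congrArg Fin.val (Equiv.Perm.congr_fun h1 (⟨0, by decide +kernel⟩ : Fin chevD4.nroots))
        exact absurd h7 (by decide +kernel)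
    have := orderOf_dvd_natCard (⟨_, hmem⟩ : ψ.range)
    rwa [← Subgroup.orderOf_coe, ho] at this
  have h9 : 9 ∣ T.index := by
    rw [← Subgroup.relIndex_mul_index hTN, show 9 = 3 * 3 from rfl]
    exact mul_dvd_mul hk3 h3
  rw [hT, torus_index f hf hK] at h9
  have e := (ZMod.natCast_eq_zero_iff _ 9).2 h9
  push_cast at e
  refine mod_check _ ?_ e
  obtain ⟨t, ht⟩ : ∃ t, Q = 3 * t + 1 := ⟨Q / 3, by omega⟩
  rw [ht]
  push_cast
  generalize (t : ZMod 9) = v
  revert v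
  decide

end index

variable {F : Type*} [Field F] [Fintype F] {r : ℕ}

/-- No alternating section of degree at least 7 outside characteristic 5. -/
theorem not_seven (p a : ℕ) [Fact p.Prime] [CharP F p] (ha : 1 ≤ a) (hp : p ≠ 5)
    (hF : Fintype.card F = (p ^ a) ^ 3) {H : Subgroup ↥(twistedD4 F (p ^ a))}
    (φ : ↥H →* alternatingGroup (Fin r)) (hφ : Function.Surjective φ) (hr : 7 ≤ r) : False := by
  haveI : Fact (Nat.Prime 5) := ⟨by norm_num⟩
  have hG : AutPow ↥H 5 6 := (autPow_five p a ha hp hF).comap H.subtype Subtype.val_injective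
  let y : alternatingGroup (Fin 7) := ⟨⟨![1, 2, 3, 4, 0, 5, 6], ![4, 0, 1, 2, 3, 5, 6], by decide, by decide⟩,
    Equiv.Perm.mem_alternatingGroup.2 (by decide +kernel)⟩
  let a : alternatingGroup (Fin 7) := ⟨⟨![0, 2, 4, 1, 3, 6, 5], ![0, 3, 1, 4, 2, 6, 5], by decide, by decide⟩,
    Equiv.Perm.mem_alternatingGroup.2 (by decide +kernel)⟩
  refine no_section hG φ hφ (y := altEmbed hr y) (a := altEmbed hr a) (k := 1) ?_ ?_ ?_
  · rw [← map_pow, show y ^ 5 ^ 1 = 1 by decide +kernel, map_one]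
  · rw [← map_inv, ← map_mul, ← map_mul, show a * y * a⁻¹ = y ^ 2 by decide +kernel, map_pow]
    exact Subgroup.pow_mem _ (Subgroup.mem_zpowers _) 2
  · rw [← map_pow, ← map_mul, ← map_mul]
    exact fun h => absurd (altEmbed_injective hr h) (by decide +kernel)

/-- The twisted Weyl image of a monomial element of 3-power order. -/
theorem perm_cube {K : Type*} [Field K] [Fintype K] {Q : ℕ} (f : K →+* K) (hf : ∀ x, f x = x ^ Q)
    (hK : Fintype.card K = Q ^ 3) {x : GL chevD4.Idx K} (hx : x ∈ twistedD4 K Q)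
    (hm : x ∈ chevD4.monomialSubgroup K) {k : ℕ} (hk : x ^ 3 ^ k = 1) :
    goodD4.perm x = 1 ∨ goodD4.perm x = sig false ∨ goodD4.perm x = sig true := by
  have hx0 : x ∈ (tdD4 f).N0 := by
    rw [← (tdD4 f).G1_inf_N, ← twistedD4_eq f hf hK]
    exact ⟨hm, hx⟩
  let ψ : ↥(chevD4.monomialSubgroup K) →* Equiv.Perm (Fin chevD4.nroots) :=
    { toFun := fun n => goodD4.perm (n : GL chevD4.Idx K)
      map_one' := goodD4.perm_eq goodD4.monRel_one
      map_mul' := fun a b => goodD4.perm_mul a.2 b.2 }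
  have hk' : goodD4.perm x ^ 3 ^ k = 1 := by
    have : ψ (⟨x, hm⟩ ^ 3 ^ k) = 1 := by
      rw [show (⟨x, hm⟩ : ↥(chevD4.monomialSubgroup K)) ^ 3 ^ k = 1 from Subtype.ext hk, map_one]
    rwa [map_pow] at this
  have h6 : goodD4.perm x ^ 6 = 1 := by
    obtain ⟨w, hw⟩ := GraphData.perm_mem_N0 okD4 coxD4 f twRowsD4 twTreeD4 chkTwistD4 hx0
    obtain ⟨j, hj⟩ := GraphData.exists_row okD4 coxD4 f twRowsD4 twTreeD4 chkTwistD4 w
    have hpow : ∀ (u : List (Fin graphD4.m)) (i : ℕ), graphD4.tPerm goodD4 u ^ i =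
        graphD4.tPerm goodD4 (List.replicate i u).flatten := fun u i => by
      induction i with
      | zero => simp [GraphData.tPerm]
      | succ i ih =>
        rw [pow_succ', ih, List.replicate_succ, List.flatten_cons, GraphData.tPerm_append okD4]
    rw [hw, hj, hpow, show (1 : Equiv.Perm (Fin chevD4.nroots)) = graphD4.tPerm goodD4 [] by simp [GraphData.tPerm]]
    refine GraphData.tPerm_ext okD4 K f coxD4 fun i => Fin.ext ?_
    rw [GraphData.coe_tPerm okD4, GraphData.coe_tPerm okD4]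
    exact rows_exp j i
  have hg := pow_gcd_eq_one.2 ⟨h6, hk'⟩
  have h3 : goodD4.perm x ^ 3 = 1 := by
    have h1 : Nat.gcd 6 (3 ^ k) ∣ 3 := by
      have h2 : Nat.Coprime (Nat.gcd 6 (3 ^ k)) 2 :=
        Nat.Coprime.coprime_dvd_left (Nat.gcd_dvd_right _ _) ((by norm_num : Nat.Coprime 3 2).pow_left k)
      exact h2.dvd_of_dvd_mul_left (show Nat.gcd 6 (3 ^ k) ∣ 2 * 3 from Nat.gcd_dvd_left _ _)
    obtain ⟨c, hc⟩ := h1
    rw [hc, pow_mul, hg, one_pow]
  rcases perm_rotation f hx0 h3 with h | ⟨b, hb⟩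
  · exact Or.inl h
  · cases b
    exacts [Or.inr (Or.inl (Equiv.ext fun r => Fin.ext (hb r))), Or.inr (Or.inr (Equiv.ext fun r => Fin.ext (hb r)))]

set_option maxHeartbeats 1000000 in
/-- A 3-group in the normalizer of the torus covering `3²` with its automizer: it is small and nonabelian. -/
theorem geometry {K : Type*} [Field K] [Fintype K] [CharP K 5] {Q : ℕ} (f : K →+* K) (hf : ∀ x, f x = x ^ Q)
    (hK : Fintype.card K = Q ^ 3) (hQ : Q % 3 = 1) {H : Type*} [Group H] [Finite H]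
    (φ : H →* alternatingGroup (Fin r)) (hr : 8 ≤ r) (ι : H →* ↥(twistedD4 K Q)) (hinj : Function.Injective ι)
    {P : Subgroup H} (hP : IsPGroup 3 P) (hPQ : P ≤ (Q8.map (altEmbed hr)).comap φ)
    (honto : ∀ y ∈ Q8.map (altEmbed hr), ∃ x ∈ P, φ x = y)
    (hlift : ∀ g : alternatingGroup (Fin 8), (∀ x ∈ nine, g * x * g⁻¹ ∈ nine) →
      ∃ h ∈ Subgroup.normalizer (P : Set H), φ h = altEmbed hr g)
    (hN : ∀ x ∈ P, (ι x : GL chevD4.Idx K) ∈ chevD4.monomialSubgroup K) :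
    Nat.card P ≤ 27 ∧ ∃ v ∈ P, ∃ t ∈ P, ¬ Commute v t := by
  classical
  haveI : Fact (Nat.Prime 3) := ⟨Nat.prime_three⟩
  obtain ⟨h, hhN, hhe⟩ := hlift aa nine_conj_aa
  set e := altEmbed hr with he
  have hei : Function.Injective e := altEmbed_injective hr
  let π : ↥P →* Equiv.Perm (Fin chevD4.nroots) :=
    { toFun := fun x => goodD4.perm (ι x : GL chevD4.Idx K)
      map_one' := by rw [OneMemClass.coe_one, map_one]; exact goodD4.perm_eq goodD4.monRel_one
      map_mul' := fun a b => by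
        rw [Subgroup.coe_mul, map_mul, Subgroup.coe_mul]
        exact goodD4.perm_mul (hN a a.2) (hN b b.2) }
  have hpow : ∀ x : P, ∃ k, (ι x : GL chevD4.Idx K) ^ 3 ^ k = 1 := fun x => by
    obtain ⟨k, hk⟩ := hP x
    refine ⟨k, ?_⟩
    rw [← Subgroup.coe_pow, ← map_pow, show (x : H) ^ 3 ^ k = 1 from congrArg Subtype.val hk, map_one]
    rfl
  have hπval : ∀ x : P, π x = 1 ∨ π x = sig false ∨ π x = sig true := fun x =>
    (hpow x).elim fun k hk => perm_cube f hf hK (ι x).2 (hN x x.2) hk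
  have hπT : ∀ x : P, π x = 1 ↔ (ι x : GL chevD4.Idx K) ∈ chevD4.diagonalSubgroup K :=
    fun x => goodD4.perm_eq_one_iff (hN x x.2)
  obtain ⟨u1, hu1, hu1e⟩ := honto (e x1) ⟨x1, x1_mem, rfl⟩
  obtain ⟨u2, hu2, hu2e⟩ := honto (e x2) ⟨x2, x2_mem, rfl⟩
  -- a torus element of P outside the kernel
  have hR1 : ∃ x : P, π x = 1 ∧ φ x ≠ 1 := by
    by_contra hcon
    push Not at hcon
    have hne : ∀ x : alternatingGroup (Fin 8), x ≠ 1 → e x ≠ 1 := fun x hx h => hx (hei (h.trans (map_one e).symm))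
    have key : ∀ (u : P) (x : alternatingGroup (Fin 8)), x ≠ 1 → φ u = e x → π u ≠ 1 := fun u x hx hu h =>
      hne x hx (hu ▸ hcon u h)
    have k1 := key ⟨u1, hu1⟩ x1 elt_facts.1 hu1e
    have k2 := key ⟨u2, hu2⟩ x2 elt_facts.2.1 hu2e
    have k3 := key (⟨u1, hu1⟩ * ⟨u2, hu2⟩) (x1 * x2) elt_facts.2.2.1 (by simp [hu1e, hu2e])
    have k4 := key (⟨u1, hu1⟩ * ⟨u2, hu2⟩⁻¹) (x1 * x2⁻¹) elt_facts.2.2.2.1 (by simp [hu1e, hu2e])
    rw [map_mul] at k3 k4
    rw [map_inv] at k4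
    have hprod := And.intro (sig_mul false) (sig_mul true)
    simp only [Bool.not_false, Bool.not_true] at hprod
    rcases hπval ⟨u1, hu1⟩ with h1 | h1 | h1 <;> rcases hπval ⟨u2, hu2⟩ with h2 | h2 | h2 <;>
      rw [h1, h2] at k3 k4 <;>
      first | exact k1 h1 | exact k2 h2 | exact k4 (mul_inv_cancel _) | exact k3 hprod.1 | exact k3 hprod.2
  -- the automizer element moves some torus element of P out of the torus
  have hhP : ∀ x ∈ P, h * x * h⁻¹ ∈ P := fun x hx => (Subgroup.mem_normalizer_iff.1 hhN x).1 hx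
  by_cases hstab : ∀ x : P, π x = 1 → π ⟨h * x * h⁻¹, hhP x x.2⟩ = 1
  · obtain ⟨x, hx, hxne⟩ := hR1
    set R := π.ker.map P.subtype with hRdef
    have hhR : h ∈ Subgroup.normalizer (R : Set H) := by
      refine mem_normalizer_of_le ?_
      rintro _ ⟨_, ⟨z, hz, rfl⟩, rfl⟩
      exact ⟨⟨_, hhP z z.2⟩, hstab z hz, rfl⟩
    have := commute_pow_six f hf hK (P := R.map ι) 1 (by
        rintro _ ⟨_, ⟨z, hz, rfl⟩, rfl⟩
        rw [one_mul, inv_one, mul_one, torusT, Subgroup.mem_subgroupOf]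
        exact (hπT z).1 hz)
      (Subgroup.le_normalizer_map ι (Subgroup.mem_map_of_mem ι hhR)) (x := ι x)
      (Subgroup.mem_map_of_mem ι ⟨x, hx, rfl⟩)
    rw [← map_pow, ← map_mul, ← map_mul] at this
    have := congrArg φ (hinj this)
    rw [map_mul, map_mul, map_pow, hhe] at this
    obtain ⟨y, hy, hye⟩ := hPQ x.2
    rw [← hye, ← map_pow, ← map_mul, ← map_mul] at this
    have hinv := aa_inverts
    exact (hxne (by rw [← hye, hinv y hy (hei this), map_one])).elim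
  push Not at hstab
  obtain ⟨t, ht, hw⟩ := hstab
  set w : P := ⟨h * t * h⁻¹, hhP t t.2⟩ with hwdef
  obtain ⟨b, hb⟩ : ∃ b, π w = sig b := by
    rcases hπval w with h' | h' | h'
    exacts [absurd h' hw, ⟨_, h'⟩, ⟨_, h'⟩]
  have hbr : ∀ r, (goodD4.perm (ι w : GL chevD4.Idx K) r).val = rImg b r.val := fun r => by
    rw [show goodD4.perm (ι w : GL chevD4.Idx K) = sig b from hb]; rfl
  -- size of P
  let π' : ↥P →* Equiv.Perm (Fin chevD4.nroots) :=
    { toFun := fun x => π ⟨h⁻¹ * x * h, by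
        simpa using (Subgroup.mem_normalizer_iff.1 (inv_mem hhN) x).1 x.2⟩
      map_one' := by rw [← map_one π]; congr 1; exact Subtype.ext (by simp)
      map_mul' := fun x y => by rw [← map_mul π]; congr 1; exact Subtype.ext (by simp [mul_assoc]) }
  have hcomm_w : ∀ x : P, π' x = 1 → Commute (w : H) x := fun x hx => by
    have e := goodD4.diagonal_comm ((hπT t).1 ht) ((hπT _).1 hx)
    rw [← Subgroup.coe_mul, ← Subgroup.coe_mul, ← map_mul, ← map_mul] at e
    have e' : (t : H) * (h⁻¹ * x * h) = (h⁻¹ * x * h) * t := hinj (Subtype.ext e)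
    show h * t * h⁻¹ * x = x * (h * t * h⁻¹)
    calc h * t * h⁻¹ * x = h * (t * (h⁻¹ * x * h)) * h⁻¹ := by group
      _ = h * ((h⁻¹ * x * h) * t) * h⁻¹ := by rw [e']
      _ = x * (h * t * h⁻¹) := by group
  have hfix : ∀ S : Subgroup ↥π.ker, (∀ x ∈ S, Commute (w : H) x.1.1) → Nat.card S ≤ 3 := fun S hS => by
    haveI : Fintype S := Fintype.ofFinite _
    let m : S → GL chevD4.Idx K := fun x => (ι (x.1.1 : H) : GL chevD4.Idx K)
    have hm : Function.Injective m := fun x y hxy =>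
      Subtype.ext (Subtype.ext (Subtype.ext (hinj (Subtype.ext hxy))))
    rw [Nat.card_eq_fintype_card, ← Finset.card_univ, ← Finset.card_image_of_injective _ hm]
    refine card_fixed_le f hf hQ (hN w w.2) hbr _ fun y hy => ?_
    obtain ⟨x, -, rfl⟩ := Finset.mem_image.1 hy
    refine ⟨(hπT x.1.1).1 x.1.2, by rw [← twistedD4_eq f hf hK]; exact (ι x.1.1).2, ?_, hpow x.1.1⟩
    show (ι w : GL chevD4.Idx K) * (ι x.1.1 : GL chevD4.Idx K) = (ι x.1.1 : GL chevD4.Idx K) * (ι w : GL chevD4.Idx K)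
    rw [← Subgroup.coe_mul, ← Subgroup.coe_mul, ← map_mul, ← map_mul, (hS x.1 x.2).eq]
  let π'' : ↥π.ker →* Equiv.Perm (Fin chevD4.nroots) := π'.comp π.ker.subtype
  have a1 := card_le_three_mul π _ _ hπval
  have a2 := card_le_three_mul π'' _ _ (fun x => hπval _)
  have a3 := hfix π''.ker fun x hx => hcomm_w x.1 hx
  refine ⟨by omega, ?_⟩
  by_contra hab
  push Not at hab
  -- abelian: φ is injective on P
  have a4 : Nat.card P ≤ 9 := by
    have := hfix ⊤ fun x _ => hab _ w.2 _ x.1.2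
    rw [Subgroup.card_top] at this
    omega
  let ψ : ↥P → ↥(Q8.map e) := fun x => ⟨φ x, hPQ x.2⟩
  have hψ : Function.Surjective ψ := fun y => by
    obtain ⟨x, hx, hxy⟩ := honto y y.2
    exact ⟨⟨x, hx⟩, Subtype.ext hxy⟩
  have hψi : Function.Injective ψ := by
    have hc : Nat.card (Q8.map e) = 9 := by rw [← Nat.card_congr (Q8.equivMapOfInjective e hei).toEquiv, card_Q8]
    exact (hψ.bijective_of_nat_card_le (by rw [hc]; exact a4)).1
  have hinjP : ∀ x ∈ P, ∀ y ∈ P, φ x = φ y → x = y := fun x hx y hy hxy =>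
    congrArg Subtype.val (@hψi ⟨x, hx⟩ ⟨y, hy⟩ (Subtype.ext hxy))
  obtain ⟨y, hy, hye⟩ := hPQ t.2
  have ht3 : (t : H) ^ 3 = 1 := hinjP _ (pow_mem t.2 3) _ (one_mem P) (by
    rw [map_pow, map_one, ← hye, ← map_pow, nine_cube y hy, map_one])
  have htne : (t : H) ≠ 1 := fun h' => hw (by
    rw [show w = 1 from Subtype.ext (by simp [hwdef, h']), map_one])
  rcases exists_refl y hy with rfl | ⟨g, hg, hgy, k, hgk⟩
  · exact htne (hinjP _ t.2 _ (one_mem P) (by rw [← hye, map_one, map_one]))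
  obtain ⟨c, hcN, hce⟩ := hlift g (refl_nine g hg)
  have hcP : ∀ x ∈ P, c * x * c⁻¹ ∈ P := fun x hx => (Subgroup.mem_normalizer_iff.1 hcN x).1 hx
  have hwe : φ (w : H) = e (aa * y * aa⁻¹) := by
    show φ (h * t * h⁻¹) = _
    rw [map_mul, map_mul, map_inv, hhe, ← hye, map_mul, map_mul, map_inv]
  have e1 : c * t * c⁻¹ = (t : H) := hinjP _ (hcP t t.2) _ t.2 (by
    rw [map_mul, map_mul, map_inv, hce, ← hye, ← map_inv, ← map_mul, ← map_mul, hgy])
  have e2 : (w : H) * (c * w * c⁻¹) = (t : H) ^ k.val := hinjP _ (mul_mem w.2 (hcP w w.2)) _ (pow_mem t.2 _) (by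
    rw [map_mul φ (w : H), map_mul φ (c * w), map_mul φ c, map_inv, hwe, hce, map_pow, ← hye, ← map_inv, ← map_mul, ← map_mul, ← map_mul,
      ← map_pow]
    congr 1
    calc _ = (aa * y * aa⁻¹) * g * (aa * y * aa⁻¹) * g⁻¹ := by simp only [mul_assoc]
      _ = _ := by rw [hgk, mul_inv_cancel_right])
  refine no_reflection (t := ι t) (w := ι w) (h := ι h) (g := ι c) (CharP.cast_eq_zero K 5) f hf hK hQ
    ((hπT t).1 ht) (by rw [← map_pow, ht3, map_one]) (fun h' => htne (hinj (h'.trans (map_one ι).symm)))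
    (hN w w.2) hbr (by rw [← map_mul, ← map_mul, (hab _ w.2 _ t.2).eq]) ?_ ?_ k.val ?_
  · rw [← map_mul, ← map_mul]; congr 1
    show h * t = h * t * h⁻¹ * h
    group
  · rw [← map_mul, ← map_mul]; congr 1
    exact mul_inv_eq_iff_eq_mul.1 e1
  · rw [← map_mul, ← map_mul, ← map_pow, ← map_mul, ← e2]; congr 1
    simp only [mul_assoc, inv_mul_cancel, mul_one]

set_option maxHeartbeats 1000000 in
/-- No alternating section of degree at least 8 in characteristic 5. -/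
theorem not_eight (a : ℕ) [CharP F 5] (ha : 1 ≤ a) (hF : Fintype.card F = (5 ^ a) ^ 3)
    {H : Subgroup ↥(twistedD4 F (5 ^ a))}
    (φ : ↥H →* alternatingGroup (Fin r)) (hφ : Function.Surjective φ) (hr : 8 ≤ r) : False := by
  classical
  haveI : Fact (Nat.Prime 5) := ⟨by norm_num⟩
  haveI : Fact (Nat.Prime 3) := ⟨by norm_num⟩
  let K := FiniteField.Extension F 5 4
  haveI : Fintype K := Fintype.ofFinite K
  haveI : CharP K 5 := charP_of_injective_algebraMap (algebraMap F K).injective 5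
  set q := (5 ^ a) ^ (3 * 1 + 1) with hq
  have hK : Fintype.card K = q ^ 3 := by
    rw [Fintype.card_eq_nat_card, FiniteField.natCard_extension, Nat.card_eq_fintype_card, hF, hq]
    ring
  obtain ⟨f, hf⟩ := exists_qFrob (F := K) (q := q) (d := 3)
    ((Nat.Prime.isPrimePow (Fact.out : Nat.Prime 5)).pow (show a ≠ 0 by omega) |>.pow (show 3 * 1 + 1 ≠ 0 by omega))
    (show 0 < 3 by omega) hK
  have hq1 : q % 3 = 1 := by
    rw [hq, ← pow_mul, mul_comm, pow_mul, Nat.pow_mod, show (5 ^ (3 * 1 + 1)) % 3 = 1 from rfl, one_pow, Nat.one_mod]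
  set e := altEmbed hr with he
  have hei : Function.Injective e := altEmbed_injective hr
  set Q := Q8.map e with hQdef
  have hQc : Nat.card Q = 9 := by
    rw [← Nat.card_congr (Q8.equivMapOfInjective e hei).toEquiv, card_Q8]
  have hQp : IsPGroup 3 Q := IsPGroup.of_card (n := 2) (by rw [hQc]; rfl)
  have hQnorm : ∀ g : alternatingGroup (Fin 8), (∀ x ∈ nine, g * x * g⁻¹ ∈ nine) →
      ∀ y ∈ Q, e g * y * (e g)⁻¹ ∈ Q := by
    rintro g hg _ ⟨x, hx, rfl⟩
    exact ⟨_, hg x hx, by simp⟩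
  have hnorm_b := nine_conj_cc
  obtain ⟨P, -, -, hPQ, hP, honto, hPsyl, hlift⟩ := exists_lift_subgroup φ Q hQp ⊤
    (fun y hy => (hφ y).elim fun x hx => ⟨x, Subgroup.mem_top x, hx⟩) ⊥ (IsPGroup.of_bot) bot_le bot_le
  -- conjugate into the normalizer of the torus
  set ι₀ := (embed hF (algebraMap F K) 1).comp H.subtype with hι₀
  obtain ⟨g, hg⟩ := exists_conj_le _ (not_dvd_index_monomial f hf hK hq1) (hP.map ι₀)
  set ι := (MulAut.conj g).toMonoidHom.comp ι₀ with hι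
  have hinj : Function.Injective ι :=
    (MulAut.conj g).injective.comp ((embed_injective hF _ 1).comp Subtype.val_injective)
  have hN : ∀ x ∈ P, (ι x : GL chevD4.Idx K) ∈ chevD4.monomialSubgroup K := fun x hx => by
    have := hg (ι₀ x) (Subgroup.mem_map_of_mem ι₀ hx)
    rwa [Subgroup.mem_subgroupOf] at this
  obtain ⟨hP27, v, hv, t₀, ht₀, hnc⟩ := geometry f hf hK hq1 φ hr ι hinj hP hPQ honto (fun g₁ hg₁ => by
    obtain ⟨h₀, hh₀⟩ := hφ (e g₁)
    obtain ⟨h, -, hhN, hhe⟩ := hlift h₀ (Subgroup.mem_top _) (by rw [hh₀]; exact hQnorm g₁ hg₁)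
    exact ⟨h, hhN, hhe.trans hh₀⟩) hN
  set w : P := ⟨v, hv⟩
  set t : P := ⟨t₀, ht₀⟩
  have hnc' : ¬ Commute (w : ↥H) (t : ↥H) := hnc
  obtain ⟨u1, hu1, hu1e⟩ := honto (e x1) ⟨x1, x1_mem, rfl⟩
  obtain ⟨u2, hu2, hu2e⟩ := honto (e x2) ⟨x2, x2_mem, rfl⟩
  -- the kernel part
  let ψ : ↥P →* Q := (φ.comp P.subtype).codRestrict Q fun x => hPQ x.2
  have hψ : Function.Surjective ψ := fun y => by
    obtain ⟨x, hx, hxy⟩ := honto y y.2
    exact ⟨⟨x, hx⟩, Subtype.ext hxy⟩
  have hZ3 : Nat.card ψ.ker ≤ 3 := by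
    have e := Subgroup.card_mul_index ψ.ker
    rw [Subgroup.index_ker, MonoidHom.range_eq_top.2 hψ, Subgroup.card_top, hQc] at e
    omega
  have hzc : ∀ z ∈ ψ.ker, ∀ x : P, x * z = z * x := fun z hz x => central_three hP ψ.ker hZ3 hz x
  set c := (u1 * u2 * u1⁻¹ * u2⁻¹ : ↥H) with hcdef
  have hcP : c ∈ P := mul_mem (mul_mem (mul_mem hu1 hu2) (inv_mem hu1)) (inv_mem hu2)
  have hck : (⟨c, hcP⟩ : P) ∈ ψ.ker := Subtype.ext (by
    show φ c = 1
    rw [hcdef, map_mul, map_mul, map_mul, map_inv, map_inv, hu1e, hu2e, ← map_inv, ← map_inv, ← map_mul,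
      ← map_mul, ← map_mul, elt_facts.2.2.2.2.1, map_one])
  have hdecomp : ∀ x : P, ∃ (i j : ℕ) (z : P), z ∈ ψ.ker ∧ x = ⟨u1, hu1⟩ ^ i * ⟨u2, hu2⟩ ^ j * z := fun x => by
    obtain ⟨y, hy, hye⟩ := hPQ x.2
    have hij := nine_pow
    obtain ⟨i, j, rfl⟩ := hij y hy
    refine ⟨i.val, j.val, (⟨u1, hu1⟩ ^ i.val * ⟨u2, hu2⟩ ^ j.val)⁻¹ * x, Subtype.ext ?_, by group⟩
    show φ ((u1 ^ i.val * u2 ^ j.val)⁻¹ * x) = 1
    rw [map_mul, map_inv, map_mul, map_pow, map_pow, hu1e, hu2e, ← hye, ← map_pow, ← map_pow, ← map_mul,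
      inv_mul_cancel]
  have hc1 : c ≠ 1 := by
    intro hc
    have hu : Commute u1 u2 := by
      rw [hcdef, mul_inv_eq_one, mul_inv_eq_iff_eq_mul] at hc
      exact hc
    apply hnc'
    obtain ⟨i, j, z, hz, ew⟩ := hdecomp w
    obtain ⟨i', j', z', hz', et⟩ := hdecomp t
    have hcz : ∀ (x : P), Commute ((z : P) : ↥H) x := fun x => (congrArg Subtype.val (hzc z hz x)).symm
    have hcz' : ∀ (x : P), Commute ((z' : P) : ↥H) x := fun x => (congrArg Subtype.val (hzc z' hz' x)).symm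
    rw [congrArg Subtype.val et, congrArg Subtype.val ew]
    simp only [Subgroup.coe_mul, Subgroup.coe_pow]
    refine Commute.mul_left (Commute.mul_right ?_ ?_) (Commute.mul_right ?_ (hcz z'))
    · refine Commute.mul_right ?_ ?_ <;> refine Commute.mul_left ?_ ?_
      exacts [Commute.pow_pow (Commute.refl _) _ _, Commute.pow_pow hu.symm _ _, Commute.pow_pow hu _ _,
        Commute.pow_pow (Commute.refl _) _ _]
    · exact ((hcz' ⟨u1, hu1⟩).symm.pow_left i).mul_left ((hcz' ⟨u2, hu2⟩).symm.pow_left j)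
    · exact ((hcz ⟨u1, hu1⟩).pow_right i').mul_right ((hcz ⟨u2, hu2⟩).pow_right j')
  -- the kernel part is a Sylow subgroup of the kernel
  set Z := ψ.ker.map P.subtype with hZdef
  have hZker : Z ≤ φ.ker := by
    rintro _ ⟨z, hz, rfl⟩
    exact congrArg Subtype.val hz
  have hmemZ : ∀ x ∈ P, φ x = 1 → x ∈ Z := fun x hx h' => ⟨⟨x, hx⟩, Subtype.ext h', rfl⟩
  have hcard_le : ∀ R : Subgroup ↥H, IsPGroup 3 R → R ≤ φ.ker → Nat.card R ≤ Nat.card Z := fun R hR hRk => by
    obtain ⟨d, hd⟩ := hPsyl R hR (fun x hx => by rw [Subgroup.mem_comap, hRk hx]; exact one_mem Q) le_top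
    have hle : R.map (MulAut.conj d).toMonoidHom ≤ Z := by
      rintro _ ⟨x, hx, rfl⟩
      exact hmemZ _ (hd x hx) (show φ (d * x * d⁻¹) = 1 by
        rw [map_mul, map_mul, map_inv, (hRk hx : φ x = 1)]; group)
    rw [Nat.card_congr (Subgroup.equivMapOfInjective R (MulAut.conj d).toMonoidHom (MulAut.conj d).injective).toEquiv]
    exact Subgroup.card_le_of_le hle
  have hbot : ∀ x : ↥H, x ∈ (⊥ : Subgroup (alternatingGroup (Fin r))).comap φ ↔ φ x = 1 := fun x => by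
    rw [Subgroup.mem_comap, Subgroup.mem_bot]
  obtain ⟨Z', hZZ', -, hZ'k, hZ'p, -, -, hliftZ⟩ := exists_lift_subgroup φ (ℓ := 3) ⊥ IsPGroup.of_bot ⊤
    (fun y hy => ⟨1, Subgroup.mem_top _, by rw [map_one, Subgroup.mem_bot.1 hy]⟩) Z
    ((hP.to_subgroup ψ.ker).map _) le_top (fun x hx => (hbot x).2 (hZker hx))
  obtain rfl : Z = Z' :=
    Subgroup.eq_of_le_of_card_ge hZZ' (hcard_le Z' hZ'p fun x hx => (hbot x).1 (hZ'k hx))
  obtain ⟨c₀, hc₀⟩ := hφ (e cc)
  obtain ⟨h4, -, h4N, h4e⟩ := hliftZ c₀ (Subgroup.mem_top _)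
    (fun y hy => by rw [Subgroup.mem_bot.1 hy, mul_one, mul_inv_cancel]; exact one_mem _)
  set C := Subgroup.centralizer (Z : Set ↥H) with hCdef
  have hZcard : Nat.card Z ≤ 3 := by
    rwa [← Nat.card_congr (ψ.ker.equivMapOfInjective _ P.subtype_injective).toEquiv]
  have h4C : h4 * h4 ∈ C := sq_mem_centralizer ((hP.to_subgroup ψ.ker).map _) hZcard h4N
  have hPC : P ≤ C := fun x hx => Subgroup.mem_centralizer_iff.2 (by
    rintro _ ⟨z, hz, rfl⟩
    exact (congrArg Subtype.val (hzc z hz ⟨x, hx⟩)).symm)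
  obtain ⟨P', hPP', -, hP'Q, hP'p, -, -, hliftC⟩ := exists_lift_subgroup φ Q hQp C
    (fun y hy => (honto y hy).elim fun x hx => ⟨x, hPC hx.1, hx.2⟩) P hP hPC hPQ
  obtain rfl : P = P' := by
    obtain ⟨d, hd⟩ := hPsyl P' hP'p hP'Q le_top
    refine Subgroup.eq_of_le_of_card_ge hPP' ?_
    rw [Nat.card_congr (Subgroup.equivMapOfInjective P' (MulAut.conj d).toMonoidHom (MulAut.conj d).injective).toEquiv]
    exact Subgroup.card_le_of_le (by rintro _ ⟨x, hx, rfl⟩; exact hd x hx)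
  obtain ⟨hb, hbC, hbN, hbe⟩ := hliftC (h4 * h4) h4C (by
    rw [map_mul, h4e, hc₀, ← map_mul]; exact hQnorm _ hnorm_b)
  rw [map_mul, h4e, hc₀, ← map_mul] at hbe
  -- hb inverts and fixes the commutator
  have hfixc : hb * c * hb⁻¹ = c :=
    mul_inv_eq_iff_eq_mul.2 (Subgroup.mem_centralizer_iff.1 hbC c (hmemZ c hcP (congrArg Subtype.val hck))).symm
  have hcen : ∀ x ∈ P, φ x = 1 → ∀ y ∈ P, Commute x y := fun x hx hx1 y hy =>
    (congrArg Subtype.val (hzc ⟨x, hx⟩ (Subtype.ext hx1) ⟨y, hy⟩)).symm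
  have hbP : ∀ x ∈ P, hb * x * hb⁻¹ ∈ P := fun x hx => (Subgroup.mem_normalizer_iff.1 hbN x).1 hx
  have hk1 : φ (u1 * (hb * u1 * hb⁻¹)) = 1 := by
    rw [map_mul, map_mul, map_mul, map_inv, hbe, hu1e, ← map_inv, ← map_mul, ← map_mul, ← map_mul,
      elt_facts.2.2.2.2.2.1, map_one]
  have hk2 : φ (u2⁻¹ * (hb * u2 * hb⁻¹)) = 1 := by
    rw [map_mul, map_mul, map_mul, map_inv, map_inv, hbe, hu2e, ← map_inv, ← map_inv, ← map_mul, ← map_mul,
      ← map_mul, elt_facts.2.2.2.2.2.2, map_one]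
  have ha2 : u2⁻¹ * (hb * u2 * hb⁻¹) ∈ P := mul_mem (inv_mem hu2) (hbP _ hu2)
  have hcinv : c = c⁻¹ := inv_comm_fixed hu1 hu2 (hcen c hcP (congrArg Subtype.val hck)) hfixc
    (hcen _ (mul_mem hu1 (hbP _ hu1)) hk1) (hcen _ ha2 hk2) ha2
  apply hc1
  obtain ⟨k, hk⟩ := hP ⟨c, hcP⟩
  have hk' : c ^ 3 ^ k = 1 := congrArg Subtype.val hk
  have h2 : c ^ 2 = 1 := by rw [sq]; nth_rewrite 1 [hcinv]; exact inv_mul_cancel c
  have := pow_gcd_eq_one.2 ⟨h2, hk'⟩
  rwa [((by norm_num : Nat.Coprime 2 3).pow_right k).gcd_eq_one, pow_one] at this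

end Cfsg.Agent.H88.AltD4
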