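import Cfsg.Agent.H88.AltSec.ChevExt
import Cfsg.Agent.H46.TypeF4

/-!
# Exponents in the Weyl group of type F₄
-/

set_option autoImplicit false

namespace Cfsg.Agent.H88.AltF4

open Cfsg.Lie Cfsg.Agent.H46 Cfsg.Agent.H88.ChevSylow

theorem finW_card : (goodF4.finW chevF4.rank).card = 1152 :=
  ChevSylow.finW_card goodF4 (cert := weylF4) chkWeyl_F4
    (show evP (chainPoly weylF4 4) (1 : ℤ) = ((1152 : ℕ) : ℤ) by decide +kernel)

theorem chk_exp : ((words weylF4 4).all fun u =>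
    ([8, 6].any fun k => isOne chevF4 tabF4 u k) || [6].any fun k => isNeg chevF4 tabF4 u k) = true := by
  decide +kernel

theorem weyl_exp {σ : Equiv.Perm (Fin chevF4.nroots)} (hσ : σ ∈ goodF4.finW chevF4.rank) :
    σ ^ 8 = 1 ∨ σ ^ 6 = 1 ∨ ∀ r, (σ ^ 6) r = goodF4.negF r := by
  rcases weyl_powers goodF4 (cert := weylF4) chkWeyl_F4 [8, 6] [6] chk_exp hσ with ⟨k, hk, h⟩ | ⟨k, hk, h⟩
  · simp only [List.mem_cons, List.not_mem_nil, or_false] at hk
    rcases hk with rfl | rfl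
    exacts [Or.inl h, Or.inr (Or.inl h)]
  · simp only [List.mem_cons, List.not_mem_nil, or_false] at hk
    subst hk
    exact Or.inr (Or.inr h)

theorem weyl_pow {σ : Equiv.Perm (Fin chevF4.nroots)} (hσ : σ ∈ goodF4.finW chevF4.rank) : σ ^ 24 = 1 := by
  rcases weyl_exp hσ with h | h | h
  · rw [show 24 = 8 * 3 by norm_num, pow_mul, h, one_pow]
  · rw [show 24 = 6 * 4 by norm_num, pow_mul, h, one_pow]
  · have e : (σ ^ 6) * (σ ^ 6) = 1 := Equiv.ext fun r => by
      rw [Equiv.Perm.mul_apply, h, h, goodF4.negF_negF]; rfl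
    rw [show 24 = (6 + 6) * 2 by norm_num, pow_mul, pow_add, e, one_pow]

end Cfsg.Agent.H88.AltF4
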