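import Cfsg.Agent.H88.AltSec.ChevExt
import Cfsg.Agent.H88.AltSec.F4Weyl

/-!
# Alternating sections of the groups of type F₄

`A₁₁` has an element of order 11 with automizer of order 5, prime to `|W(F₄)| = 1152`; `A₁₂` has a cyclic subgroup of
order 35 with an automizer of order 12 acting as no element of `W(F₄)` can.
-/

set_option autoImplicit false

namespace Cfsg.Agent.H88.AltF4

open Cfsg.Lie Cfsg.Agent.H46 Cfsg.Agent.H88.AutSec Cfsg.Agent.H88.ChevSylow
open scoped Matrix MatrixGroups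

/-- The 11-cycle on 11 points. -/
def y11 : Equiv.Perm (Fin 11) := finRotate 11

/-- Multiplication by 3 modulo 11. -/
def a11 : Equiv.Perm (Fin 11) where
  toFun i := i * 3
  invFun i := i * 4
  left_inv := by decide
  right_inv := by decide

/-- The 7-cycle on the first 7 of 12 points. -/
def y7 : Equiv.Perm (Fin 12) where
  toFun := ![1, 2, 3, 4, 5, 6, 0, 7, 8, 9, 10, 11]
  invFun := ![6, 0, 1, 2, 3, 4, 5, 7, 8, 9, 10, 11]
  left_inv := by decide
  right_inv := by decide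

/-- The 5-cycle on the last 5 of 12 points. -/
def y5 : Equiv.Perm (Fin 12) where
  toFun := ![0, 1, 2, 3, 4, 5, 6, 8, 9, 10, 11, 7]
  invFun := ![0, 1, 2, 3, 4, 5, 6, 11, 7, 8, 9, 10]
  left_inv := by decide
  right_inv := by decide

/-- Multiplication by 3 modulo 7 and by 2 modulo 5. -/
def a12 : Equiv.Perm (Fin 12) where
  toFun := ![0, 3, 6, 2, 5, 1, 4, 7, 9, 11, 8, 10]
  invFun := ![0, 5, 3, 1, 6, 4, 2, 7, 10, 8, 11, 9]
  left_inv := by decide
  right_inv := by decide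

variable {F : Type*} [Field F] [Fintype F] {r : ℕ}

/-- No alternating section of degree at least 11 outside characteristic 11. -/
theorem not_eleven (p : ℕ) [Fact p.Prime] [CharP F p] (hp : p ≠ 11) {H : Subgroup ↥(chevF4.group F)}
    (φ : ↥H →* alternatingGroup (Fin r)) (hφ : Function.Surjective φ) (hr : 11 ≤ r) : False := by
  haveI : Fact (Nat.Prime 11) := ⟨by norm_num⟩
  obtain ⟨K, _, _, _, f, hK⟩ := exists_extension F p 11
    (fun h => hp ((Nat.prime_dvd_prime_iff_eq Fact.out (by norm_num)).1 h))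
  have hG : AutPow ↥H 11 24 :=
    (autPow goodF4 hK (by rw [finW_card]; norm_num) fun σ hσ => weyl_pow hσ).comap
      ((mapHom chevF4 f).comp H.subtype) ((mapHom_injective chevF4 f).comp Subtype.val_injective)
  let y : alternatingGroup (Fin 11) := ⟨y11, Equiv.Perm.mem_alternatingGroup.2 (by decide +kernel)⟩
  let a : alternatingGroup (Fin 11) := ⟨a11, Equiv.Perm.mem_alternatingGroup.2 (by decide +kernel)⟩
  refine no_section hG φ hφ (y := altEmbed hr y) (a := altEmbed hr a) (k := 1) ?_ ?_ ?_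
  · rw [← map_pow, show y ^ 11 ^ 1 = 1 by decide +kernel, map_one]
  · rw [← map_inv, ← map_mul, ← map_mul, show a * y * a⁻¹ = y ^ 3 by decide +kernel, map_pow]
    exact Subgroup.pow_mem _ (Subgroup.mem_zpowers _) 3
  · rw [← map_pow, ← map_mul, ← map_mul]
    exact fun h => absurd (altEmbed_injective hr h) (by decide +kernel)

/-- No alternating section of degree at least 12 in characteristic 11. -/
theorem not_twelve [CharP F 11] {H : Subgroup ↥(chevF4.group F)}
    (φ : ↥H →* alternatingGroup (Fin r)) (hφ : Function.Surjective φ) (hr : 12 ≤ r) : False := by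
  haveI : Fact (Nat.Prime 11) := ⟨by norm_num⟩
  haveI : Fact (Nat.Prime 7) := ⟨by norm_num⟩
  haveI : Fact (Nat.Prime 5) := ⟨by norm_num⟩
  obtain ⟨K, _, _, _, f, hK⟩ := exists_extension F 11 35 (by norm_num)
  have h5 : 5 ∣ Fintype.card K - 1 := (show 5 ∣ 35 by norm_num).trans hK
  have h7 : 7 ∣ Fintype.card K - 1 := (show 7 ∣ 35 by norm_num).trans hK
  have hW5 : ¬ 5 ∣ (goodF4.finW chevF4.rank).card := by rw [finW_card]; norm_num
  have hW7 : ¬ 7 ∣ (goodF4.finW chevF4.rank).card := by rw [finW_card]; norm_num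
  set ι := (mapHom chevF4 f).comp H.subtype with hι
  have hinj : Function.Injective ι := (mapHom_injective chevF4 f).comp Subtype.val_injective
  have hG5 : AutPow ↥H 5 24 := (autPow goodF4 h5 hW5 fun σ hσ => weyl_pow hσ).comap ι hinj
  let z5 : alternatingGroup (Fin 12) := ⟨y5, Equiv.Perm.mem_alternatingGroup.2 (by decide +kernel)⟩
  let z7 : alternatingGroup (Fin 12) := ⟨y7, Equiv.Perm.mem_alternatingGroup.2 (by decide +kernel)⟩
  let za : alternatingGroup (Fin 12) := ⟨a12, Equiv.Perm.mem_alternatingGroup.2 (by decide +kernel)⟩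
  set e := altEmbed hr
  obtain ⟨x5, hx5⟩ := hφ (e z5)
  obtain ⟨x7, hx7⟩ := hφ (e z7)
  obtain ⟨h₀, hh₀⟩ := hφ (e za)
  obtain ⟨P5, hP5, ⟨u5, hu5, hu5e⟩, hl5⟩ := exists_lift φ x5 (ℓ := 5) (k := 1)
    (by rw [hx5, ← map_pow, show z5 ^ 5 ^ 1 = 1 by decide +kernel, map_one])
  obtain ⟨t7, ht7, ht7e⟩ := hl5 x7 (by
    rw [hx5, hx7, ← map_inv, ← map_mul, ← map_mul, show z7 * z5 * z7⁻¹ = z5 by decide +kernel]
    exact Subgroup.mem_zpowers _)
  obtain ⟨ta, hta, htae⟩ := hl5 h₀ (by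
    rw [hx5, hh₀, ← map_inv, ← map_mul, ← map_mul, show za * z5 * za⁻¹ = z5 ^ 2 by decide +kernel, map_pow]
    exact Subgroup.pow_mem _ (Subgroup.mem_zpowers _) 2)
  obtain ⟨P7, hP7, ⟨u7, hu7, hu7e⟩, hl7⟩ := exists_lift (φ.comp (Subgroup.normalizer (P5 : Set ↥H)).subtype)
    ⟨t7, ht7⟩ (ℓ := 7) (k := 1) (by
      simp only [MonoidHom.comp_apply, Subgroup.coe_subtype]
      rw [ht7e, hx7, ← map_pow, show z7 ^ 7 ^ 1 = 1 by decide +kernel, map_one])
  obtain ⟨h, hh, hhe⟩ := hl7 ⟨ta, hta⟩ (by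
    simp only [MonoidHom.comp_apply, Subgroup.coe_subtype]
    rw [ht7e, htae, hx7, hh₀, ← map_inv, ← map_mul, ← map_mul,
      show za * z7 * za⁻¹ = z7 ^ 3 by decide +kernel, map_pow]
    exact Subgroup.pow_mem _ (Subgroup.mem_zpowers _) 3)
  simp only [MonoidHom.comp_apply, Subgroup.coe_subtype] at hhe hu7e
  set Q7 := P7.map (Subgroup.normalizer (P5 : Set ↥H)).subtype with hQ7
  have hQ7p : IsPGroup 7 Q7 := hP7.map _
  have hcomm : ∀ a ∈ P5, ∀ b ∈ Q7, b * a = a * b := by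
    rintro a ha _ ⟨b, hb, rfl⟩
    obtain ⟨k, hk⟩ := hQ7p ⟨_, b, hb, rfl⟩
    refine commute_of_coprime hG5 hP5 b.2 ?_ ha
    exact Nat.Coprime.coprime_dvd_left (orderOf_dvd_of_pow_eq_one (congrArg Subtype.val hk))
      ((by norm_num : Nat.Coprime 7 24).pow_left k)
  obtain ⟨g, hg⟩ := exists_conj_diagonal_pair goodF4 h5 hW5 h7 hW7 (hP5.map ι) (hQ7p.map ι)
    (by rintro _ ⟨a, ha, rfl⟩ _ ⟨b, hb, rfl⟩; rw [← map_mul, ← map_mul, hcomm a ha b hb])
  rw [← Subgroup.map_sup] at hg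
  have hhN : (h : ↥H) ∈ Subgroup.normalizer ((P5 ⊔ Q7 : Subgroup ↥H) : Set ↥H) := by
    refine Subgroup.normalizer_inf_normalizer_le_normalizer_sup P5 Q7 ?_
    exact ⟨h.2, Subgroup.le_normalizer_map _ (Subgroup.mem_map_of_mem _ hh)⟩
  obtain ⟨σ, hσ, h1, h2⟩ := automizer goodF4 g hg
    (Subgroup.le_normalizer_map ι (Subgroup.mem_map_of_mem ι hhN))
  have hone : ∀ k, σ ^ k = 1 → ∀ x ∈ P5 ⊔ Q7, e za ^ k * φ x = φ x * e za ^ k := by
    intro k hk x hx
    have := h1 k hk (ι x) (Subgroup.mem_map_of_mem ι hx)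
    rw [← map_pow, ← map_mul, ← map_mul] at this
    have := congrArg φ (hinj this)
    rwa [map_mul, map_mul, map_pow, hhe, htae, hh₀] at this
  have m5 : u5 ∈ P5 ⊔ Q7 := Subgroup.mem_sup_left hu5
  have m7 : (u7 : ↥H) ∈ P5 ⊔ Q7 := Subgroup.mem_sup_right ⟨u7, hu7, rfl⟩
  rcases weyl_exp hσ with hk | hk | hk
  · have := hone 8 hk _ m7
    rw [hu7e, ht7e, hx7, ← map_pow, ← map_mul, ← map_mul] at this
    exact absurd (altEmbed_injective hr this) (by decide +kernel)
  · have := hone 6 hk _ m5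
    rw [hu5e, hx5, ← map_pow, ← map_mul, ← map_mul] at this
    exact absurd (altEmbed_injective hr this) (by decide +kernel)
  · have := h2 6 hk (ι u7) (Subgroup.mem_map_of_mem ι m7)
    rw [← map_pow, ← map_inv, ← map_inv, ← map_mul, ← map_mul] at this
    have := congrArg φ (hinj this)
    rw [map_mul, map_mul, map_inv, map_inv, map_pow, hhe, htae, hh₀, hu7e, ht7e, hx7, ← map_pow, ← map_inv,
      ← map_inv, ← map_mul, ← map_mul] at this
    exact absurd (altEmbed_injective hr this) (by decide +kernel)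

end Cfsg.Agent.H88.AltF4
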