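import Cfsg.Agent.H65.Twist.F4Statements
import Cfsg.Agent.H88.AltSec.ChevSylow

/-!
# Alternating sections of the twisted groups of type F₄

The Sylow 7-subgroups lie in the twisted torus, and their fusion is controlled by the twisted Weyl group of
exponent 8, so no element of order 3 acts on them as on a 7-cycle.
-/

set_option autoImplicit false

namespace Cfsg.Agent.H88.AltF4Twist

open Cfsg.Lie Cfsg.Agent.H46 Cfsg.Agent.H65.Twist Cfsg.Agent.H88.AutSec Cfsg.Agent.H88.ChevSylow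
open scoped Matrix MatrixGroups

variable {K : Type*} [Field K] [Fintype K] {m : ℕ}

/-- The twisted torus has index prime to 7. -/
theorem not_dvd_index (hK : Fintype.card K = 2 ^ (2 * m + 1)) :
    ¬ 7 ∣ ((chevF4.diagonalSubgroup K ⊓ twistedF4 K (2 ^ m)).subgroupOf (twistedF4 K (2 ^ m))).index := by
  set q := 2 ^ (2 * m + 1) with hq
  set T := (chevF4.diagonalSubgroup K ⊓ twistedF4 K (2 ^ m)).subgroupOf (twistedF4 K (2 ^ m))
  have hq1 : 2 ≤ q := le_self_pow₀ (by norm_num : 1 ≤ 2) (Nat.succ_ne_zero _)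
  have hT : Nat.card T = (q - 1) ^ 2 := by
    rw [Nat.card_congr (Subgroup.subgroupOfEquivOfLe inf_le_right).toEquiv, f4_card_diagonal hK]
  have e := Subgroup.card_mul_index T
  rw [hT, f4_card hK, ← hq] at e
  have hidx : T.index = q ^ 12 * (q ^ 3 + 1) * ((q + 1) * (q ^ 2 + 1)) * (q ^ 6 + 1) := by
    refine Nat.eq_of_mul_eq_mul_left (show 0 < (q - 1) ^ 2 from pow_pos (by omega) 2) (e.trans ?_)
    obtain ⟨k, hk⟩ : ∃ k, q = k + 1 := ⟨q - 1, by omega⟩
    rw [hk, Nat.add_sub_cancel,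
      show (k + 1) ^ 4 - 1 = k * ((k + 2) * ((k + 1) ^ 2 + 1)) from Nat.sub_eq_of_eq_add (by ring)]
    ring
  rw [hidx]
  intro h
  have h7 := (CharP.cast_eq_zero_iff (ZMod 7) 7 _).2 h
  push_cast at h7
  have hmod : (q : ZMod 7) = 1 ∨ (q : ZMod 7) = 2 ∨ (q : ZMod 7) = 4 := by
    rw [hq]; push_cast
    generalize 2 * m + 1 = n
    induction n with
    | zero => left; rfl
    | succ n ih =>
      rw [pow_succ]
      rcases ih with e | e | e <;> rw [e]
      exacts [Or.inr (Or.inl rfl), Or.inr (Or.inr rfl), Or.inl rfl]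
  rcases hmod with e | e | e <;> rw [e] at h7 <;> exact absurd h7 (by decide +kernel)

/-- A monomial element fusing as a given element of the twisted group, of twisted Weyl image of exponent 8. -/
theorem exists_monomial_twisted (hK : Fintype.card K = 2 ^ (2 * m + 1)) {f : ↥(chevF4.group K)}
    (hf : f ∈ f4W K m) :
    ∃ n ∈ chevF4.monomialSubgroup K, goodF4.perm n ^ 8 = 1 ∧
      ∀ t ∈ chevF4.diagonalSubgroup K, (f : GL chevF4.Idx K) * t * (f : GL chevF4.Idx K)⁻¹ ∈ chevF4.diagonalSubgroup K →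
        n * t * n⁻¹ = (f : GL chevF4.Idx K) * t * (f : GL chevF4.Idx K)⁻¹ := by
  have := charP_of_card_eq_prime_pow (p := 2) hK
  set S := f4Setup K hK
  set W := f4Table K hK
  have hfG : f ∈ S.data.G1 := S.G1_eq ▸ hf
  obtain ⟨n, hn, hcell⟩ := S.data.exists_cell hfG
  have hnm : (n : GL chevF4.Idx K) ∈ chevF4.monomialSubgroup K := S.data.N0_le_N hn
  obtain ⟨d, hd⟩ := W.exists_perm hn
  refine ⟨_, hnm, ?_, fusion_of_cell goodF4 hnm ?_⟩
  · have hpow : ∀ k : ℕ, W.perm d ^ k = W.perm (d ^ k) := fun k => by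
      induction k with
      | zero => rw [pow_zero, pow_zero, W.perm_one]
      | succ k ih => rw [pow_succ, ih, W.perm_mul, pow_succ]
    have h8 : ∀ d : DihedralGroup 8, d ^ 8 = 1 := by decide +kernel
    rw [hd, hpow, h8, W.perm_one]
  · obtain ⟨u, hu, h, hh, u', hu', rfl⟩ := hcell
    refine goodF4.mem_bruhatCell.2 ⟨_, Subgroup.mem_sup_left (S.mem_U1.1 hu).1, _,
      mul_mem (Subgroup.mem_sup_right hh.1) (Subgroup.mem_sup_left (S.mem_U1.1 hu').1), ?_⟩
    simp only [Subgroup.coe_mul, Subgroup.subtype_apply, mul_assoc]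

/-- The eighth power of an element normalizing a 7-subgroup centralizes it. -/
theorem autPow_seven (hK : Fintype.card K = 2 ^ (2 * m + 1)) : AutPow ↥(twistedF4 K (2 ^ m)) 7 8 := by
  have := charP_of_card_eq_prime_pow (p := 2) hK
  haveI : Fact (Nat.Prime 7) := ⟨by norm_num⟩
  intro P hP h hh x hx
  obtain ⟨g, hg⟩ := exists_conj_le _ (not_dvd_index hK) hP
  set ι := Subgroup.inclusion (twistedF4_le (K := K) (m := m))
  have hW : ι (g * h * g⁻¹) ∈ f4W K m := Subgroup.mem_subgroupOf.2 (g * h * g⁻¹).2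
  obtain ⟨n, hn, h8, hfus⟩ := exists_monomial_twisted hK hW
  have hinj : Function.Injective ι := Subgroup.inclusion_injective _
  apply hinj
  rw [map_mul, map_mul, map_pow]
  refine commute_pow_of_fusion goodF4 (P := P.map ι) (ι g) ?_
    (Subgroup.le_normalizer_map ι (Subgroup.mem_map_of_mem ι hh)) hn ?_ h8 _ (Subgroup.mem_map_of_mem ι hx)
  · rintro _ ⟨y, hy, rfl⟩
    rw [← map_inv, ← map_mul, ← map_mul]
    exact (Subgroup.mem_inf.1 (Subgroup.mem_subgroupOf.1 (hg y hy))).1
  · rw [← map_inv, ← map_mul, ← map_mul]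
    exact hfus

/-- No alternating section of degree at least 7. -/
theorem not_seven (hK : Fintype.card K = 2 ^ (2 * m + 1)) {r : ℕ} {H : Subgroup ↥(twistedF4 K (2 ^ m))}
    (φ : ↥H →* alternatingGroup (Fin r)) (hφ : Function.Surjective φ) (hr : 7 ≤ r) : False := by
  haveI : Fact (Nat.Prime 7) := ⟨by norm_num⟩
  have hG : AutPow ↥H 7 8 := (autPow_seven hK).comap H.subtype Subtype.val_injective
  let y : alternatingGroup (Fin 7) := ⟨⟨![1, 2, 3, 4, 5, 6, 0], ![6, 0, 1, 2, 3, 4, 5], by decide, by decide⟩,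
    Equiv.Perm.mem_alternatingGroup.2 (by decide +kernel)⟩
  let a : alternatingGroup (Fin 7) := ⟨⟨![0, 2, 4, 6, 1, 3, 5], ![0, 4, 1, 5, 2, 6, 3], by decide, by decide⟩,
    Equiv.Perm.mem_alternatingGroup.2 (by decide +kernel)⟩
  refine no_section hG φ hφ (y := altEmbed hr y) (a := altEmbed hr a) (k := 1) ?_ ?_ ?_
  · rw [← map_pow, show y ^ 7 ^ 1 = 1 by decide +kernel, map_one]
  · rw [← map_inv, ← map_mul, ← map_mul, show a * y * a⁻¹ = y ^ 2 by decide +kernel, map_pow]
    exact Subgroup.pow_mem _ (Subgroup.mem_zpowers _) 2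
  · rw [← map_pow, ← map_mul, ← map_mul]
    exact fun h => absurd (altEmbed_injective hr h) (by decide +kernel)

end Cfsg.Agent.H88.AltF4Twist
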