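import Cfsg.Agent.H88.AltSec.ChevExt
import Cfsg.Agent.H46.TypeG2

/-!
# Elements of order three in the normalizer of the torus of G₂

A monomial element inducing a rotation of order three fixes at most three torus elements of the Sylow 3-subgroup;
these have trace 5, while the monomial element has trace -1.
-/

set_option autoImplicit false

namespace Cfsg.Agent.H88.AltG2

open Cfsg.Lie Cfsg.Agent.H46 Cfsg.Agent.H88.ChevSylow
open scoped Matrix MatrixGroups

theorem finW_card : (goodG2.finW chevG2.rank).card = 12 :=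
  ChevSylow.finW_card goodG2 (cert := weylG2) chkWeyl_G2
    (show evP (chainPoly weylG2 2) (1 : ℤ) = ((12 : ℕ) : ℤ) by decide +kernel)

theorem weyl_pow {σ : Equiv.Perm (Fin chevG2.nroots)} (hσ : σ ∈ goodG2.finW chevG2.rank) : σ ^ 6 = 1 := by
  rcases weyl_powers goodG2 (cert := weylG2) chkWeyl_G2 [6] [] (by decide +kernel) hσ with ⟨k, hk, h⟩ | ⟨k, hk, h⟩
  · simp only [List.mem_cons, List.not_mem_nil, or_false] at hk
    exact hk ▸ h
  · simp at hk

/-- The rotation by a third of a turn and its square, as words. -/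
def rot : Bool → List ℕ
  | false => [0, 1, 0, 1]
  | true => [1, 0, 1, 0]

theorem rot_lt : ∀ b, ∀ i ∈ rot b, i < chevG2.rank := by decide +kernel

theorem weyl_cube {σ : Equiv.Perm (Fin chevG2.nroots)} (hσ : σ ∈ goodG2.finW chevG2.rank) (h3 : σ ^ 3 = 1) :
    σ = 1 ∨ ∃ b, σ = goodG2.permW (rot b) := by
  obtain ⟨u, hu, hu', rfl⟩ := exists_mem_words goodG2 (cert := weylG2) chkWeyl_G2 chevG2.rank le_rfl σ (goodG2.mem_finW.1 hσ)
  have hchk : ((words weylG2 2).all fun u => !(isOne chevG2 tabG2 u 3) ||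
      (isOne chevG2 tabG2 u 1 || [false, true].any fun b => (List.range 2).all fun m =>
        Nat.beq (appW' tabG2 u (chevG2.simple m)) (appW' tabG2 (rot b) (chevG2.simple m)))) = true := by decide +kernel
  rw [List.all_eq_true] at hchk
  have h := hchk u hu
  have h3' : isOne chevG2 tabG2 u 3 = true := by
    simp only [isOne, List.all_eq_true, List.mem_range]
    intro m hm
    rw [permW_pow goodG2] at h3
    refine Nat.beq_eq ▸ ?_
    have := goodG2.coe_permW_apply (List.replicate 3 u).flatten (fun i hi => ?_) (goodG2.simpleF ⟨m, hm⟩)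
    · rw [h3] at this
      exact this.symm
    · obtain ⟨l, hl, hil⟩ := List.mem_flatten.1 hi
      rw [List.eq_of_mem_replicate hl] at hil
      exact hu' i hil
  rw [h3'] at h
  simp only [Bool.not_true, Bool.false_or, Bool.or_eq_true, List.any_eq_true] at h
  have hrot := rot_lt
  rcases h with h | ⟨b, -, hb⟩
  · left
    simp only [isOne, List.all_eq_true, List.mem_range, List.replicate_one, List.flatten_cons, List.flatten_nil,
      List.append_nil] at h
    refine goodG2.permW_eq_one fun i => ?_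
    have e : goodG2.permW u (goodG2.simpleF i) = goodG2.simpleF i := Fin.ext (by
      rw [goodG2.coe_permW_apply _ hu']; exact Nat.eq_of_beq_eq_true (h i i.2))
    rw [e]; exact goodG2.isPosRoot_simple i.2
  · right
    simp only [List.all_eq_true, List.mem_range] at hb
    refine ⟨b, goodG2.permW_ext fun i => Fin.ext ?_⟩
    rw [goodG2.coe_permW_apply _ hu', goodG2.coe_permW_apply _ (hrot b)]
    exact Nat.eq_of_beq_eq_true (hb i i.2)

variable {K : Type*} [Field K]

/-- The value of a torus parameter on the short simple root. -/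
noncomputable def v7 (z : Fin chevG2.rank → Kˣ) : Kˣ := goodG2.torusVal z 7

theorem coords : ∀ s : Fin 12, goodG2.rc s.val =
    (goodG2.rc s.val ⟨0, by decide⟩) • goodG2.rc 7 + (goodG2.rc s.val ⟨1, by decide⟩) • goodG2.rc 6 := by decide +kernel

/-- A torus element commuting with a rotation has cube-root-of-unity values. -/
theorem fixed_values {n : GL (chevG2.Idx) K} (hn : n ∈ chevG2.monomialSubgroup K) {b : Bool}
    (hb : goodG2.perm n = goodG2.permW (rot b)) (z : Fin chevG2.rank → Kˣ) (hc : n * goodG2.torus z = goodG2.torus z * n) :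
    v7 z ^ 3 = 1 ∧ ∀ s : Fin chevG2.nroots, goodG2.torusVal z s = v7 z ^ goodG2.rc s.val ⟨0, by decide⟩ := by
  have key : ∀ s : Fin chevG2.nroots, goodG2.torusVal z (goodG2.perm n s) = goodG2.torusVal z s := fun s => by
    obtain ⟨c, hcs⟩ := goodG2.conj_xg_eq hn s
    have e1 : goodG2.torus z * (n * goodG2.xg s (1 : K) * n⁻¹) * (goodG2.torus z)⁻¹ =
        n * (goodG2.torus z * goodG2.xg s (1 : K) * (goodG2.torus z)⁻¹) * n⁻¹ := by
      calc _ = (goodG2.torus z * n) * goodG2.xg s (1 : K) * (goodG2.torus z * n)⁻¹ := by group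
        _ = (n * goodG2.torus z) * goodG2.xg s (1 : K) * (n * goodG2.torus z)⁻¹ := by rw [hc]
        _ = _ := by group
    rw [goodG2.torus_conj_xg z s.2, hcs, hcs, goodG2.torus_conj_xg z (goodG2.perm n s).2] at e1
    have e2 := goodG2.xg_injective (goodG2.perm n s).2 e1
    simp only [mul_one] at e2
    exact Units.ext (mul_left_cancel₀ c.ne_zero (by rw [mul_comm]; exact e2))
  have hw : ∀ (b : Bool) (s : Fin chevG2.nroots), (goodG2.permW (rot b) s).val = appW' tabG2 (rot b) s.val := fun b s =>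
    goodG2.coe_permW_apply _ (rot_lt b) s
  have k7 := key ⟨7, by decide⟩
  have k8 := key (goodG2.perm n ⟨7, by decide⟩)
  rw [k7] at k8
  simp only [hb] at k7 k8
  rw [hw] at k7
  rw [hw, hw] at k8
  have e8 : goodG2.torusVal z 8 = v7 z ∧ goodG2.torusVal z 2 = v7 z := by
    cases b
    · exact ⟨k7, k8⟩
    · exact ⟨k8, k7⟩
  have h6 : goodG2.torusVal z 6 = 1 := by
    have := goodG2.torusVal_add (r := 7) (s := 6) (u := 8) z 1 1 (by decide +kernel)
    rw [e8.1, zpow_one, zpow_one] at this
    exact mul_eq_left.1 this.symm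
  refine ⟨?_, fun s => ?_⟩
  · have := goodG2.torusVal_add (r := 7) (s := 6) (u := 2) z (-2) (-1) (by decide +kernel)
    rw [e8.2, h6, one_zpow, mul_one, zpow_neg, zpow_ofNat] at this
    rw [eq_inv_iff_mul_eq_one] at this
    rw [pow_succ']
    exact this
  · rw [goodG2.torusVal_add (r := 7) (s := 6) (u := s.val) z _ _ (coords s), h6, one_zpow, mul_one]
    rfl

/-- At most three elements of the torus commute with a rotation. -/
theorem card_fixed_le {n : GL (chevG2.Idx) K} (hn : n ∈ chevG2.monomialSubgroup K) {b : Bool}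
    (hb : goodG2.perm n = goodG2.permW (rot b)) (S : Finset (GL (chevG2.Idx) K))
    (hS : ∀ t ∈ S, t ∈ chevG2.diagonalSubgroup K ∧ n * t = t * n) : S.card ≤ 3 := by
  classical
  choose z hz using fun t : S => goodG2.mem_diagonal.1 (hS t t.2).1
  have h3 : ∀ t, (v7 (z t) : K) ^ 3 = 1 := fun t => by
    rw [← Units.val_pow_eq_pow_val, (fixed_values hn hb (z t) ((hz t) ▸ (hS t t.2).2)).1, Units.val_one]
  have hinj : Function.Injective fun t : S => (v7 (z t) : K) := fun s t h => by
    have h' : v7 (z s) = v7 (z t) := Units.ext h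
    have e : goodG2.torus (z s * (z t)⁻¹) = 1 := by
      rw [goodG2.torus_eq_one_iff]
      intro r hr
      have hs := (fixed_values hn hb (z s) ((hz s) ▸ (hS s s.2).2)).2 ⟨r, hr⟩
      have ht := (fixed_values hn hb (z t) ((hz t) ▸ (hS t t.2).2)).2 ⟨r, hr⟩
      have hi := goodG2.torusVal_mul (z t) (z t)⁻¹ r
      rw [mul_inv_cancel, goodG2.torusVal_one] at hi
      rw [goodG2.torusVal_mul, hs, h', ← ht]
      exact hi.symm
    rw [map_mul, map_inv, mul_inv_eq_one] at e
    exact Subtype.ext ((hz s).trans (e.trans (hz t).symm))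
  calc S.card = Fintype.card S := (Fintype.card_coe S).symm
    _ = (Finset.univ.image fun t : S => (v7 (z t) : K)).card := by
        rw [Finset.card_image_of_injective _ hinj, Finset.card_univ]
    _ ≤ (Polynomial.nthRoots 3 (1 : K)).toFinset.card := Finset.card_le_card fun a ha => by
        obtain ⟨t, -, rfl⟩ := Finset.mem_image.1 ha
        rw [Multiset.mem_toFinset, Polynomial.mem_nthRoots (by norm_num)]
        exact h3 t
    _ ≤ _ := (Multiset.toFinset_card_le _).trans (Polynomial.card_nthRoots 3 1)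

/-- The trace of a nontrivial torus element fixed by a rotation. -/
theorem trace_fixed {n : GL (chevG2.Idx) K} (hn : n ∈ chevG2.monomialSubgroup K) {b : Bool}
    (hb : goodG2.perm n = goodG2.permW (rot b)) {t : GL (chevG2.Idx) K} (ht : t ∈ chevG2.diagonalSubgroup K) (hc : n * t = t * n)
    (h1 : t ≠ 1) : (t : Matrix (chevG2.Idx) (chevG2.Idx) K).trace = 5 := by
  obtain ⟨z, rfl⟩ := goodG2.mem_diagonal.1 ht
  obtain ⟨h3, hv⟩ := fixed_values hn hb z hc
  have hne : (v7 z : K) ≠ 1 := fun h => h1 ((goodG2.torus_eq_one_iff z).2 fun s hs => by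
    have h' : v7 z = 1 := Units.ext h
    rw [hv ⟨s, hs⟩, h', one_zpow])
  have h3' : (v7 z : K) ^ 3 = 1 := by rw [← Units.val_pow_eq_pow_val, h3, Units.val_one]
  have hcyc : (v7 z : K) ^ 2 + (v7 z : K) + 1 = 0 := by
    refine (mul_eq_zero.1 (?_ : ((v7 z : K) - 1) * ((v7 z : K) ^ 2 + (v7 z : K) + 1) = 0)).resolve_left
      (sub_ne_zero.2 hne)
    linear_combination h3'
  have hpow : ∀ c : ℤ, v7 z ^ c = v7 z ^ (c % 3).toNat := fun c => by
    have e : v7 z ^ (3 : ℤ) = 1 := by rw [zpow_ofNat]; exact h3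
    conv_lhs => rw [← Int.mul_ediv_add_emod c 3, zpow_add, zpow_mul, e, one_zpow, one_mul]
    rw [← zpow_natCast, Int.toNat_of_nonneg (Int.emod_nonneg c (by norm_num))]
  have hval : ∀ s : Fin chevG2.nroots, (goodG2.torusVal z s : K) = (v7 z : K) ^ ((goodG2.rc s.val ⟨0, by decide⟩) % 3).toNat :=
    fun s => by rw [hv, hpow, Units.val_pow_eq_pow_val]
  have hcnt : ((List.finRange chevG2.nroots).map fun s => ((goodG2.rc s.val ⟨0, by decide⟩) % 3).toNat) =
      [0, 0, 1, 2, 2, 0, 0, 1, 1, 2, 0, 0] := by decide +kernel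
  rw [goodG2.coe_torus, rdiag, Matrix.trace_diagonal, Fintype.sum_sum_type]
  simp only [Sum.elim_inl, Sum.elim_inr, hval]
  rw [show ∑ s : Fin chevG2.nroots, (v7 z : K) ^ ((goodG2.rc s.val ⟨0, by decide⟩) % 3).toNat =
      (([0, 0, 1, 2, 2, 0, 0, 1, 1, 2, 0, 0] : List ℕ).map fun e => (v7 z : K) ^ e).sum by
    rw [← hcnt, List.map_map, Fin.sum_univ_def]; rfl]
  simp only [List.map_cons, List.map_nil, List.sum_cons, List.sum_nil, Finset.sum_const, Finset.card_univ,
    Fintype.card_fin, show chevG2.rank = 2 from rfl, pow_zero, pow_one, nsmul_eq_mul, Nat.cast_ofNat, mul_one]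
  linear_combination 3 * hcyc

theorem nProd_mulVec_e : ∀ (L : List (Fin chevG2.rank)) (s : Fin chevG2.nroots), ∃ c : K,
    ((goodG2.nProd L : GL (chevG2.Idx) K) : Matrix (chevG2.Idx) (chevG2.Idx) K) *ᵥ bvec chevG2 K (chevG2.rank + s.val) =
      c • bvec chevG2 K (chevG2.rank + ((L.map goodG2.sPerm).prod s).val)
  | [], s => ⟨1, by simp [Good.nProd]⟩
  | i :: L, s => by
    obtain ⟨c, hc⟩ := nProd_mulVec_e L s
    refine ⟨c * (goodG2.tab.eta i ((L.map goodG2.sPerm).prod s).val : K), ?_⟩
    rw [goodG2.nProd_cons, Units.val_mul, ← Matrix.mulVec_mulVec, hc, Matrix.mulVec_smul, goodG2.coe_ng,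
      goodG2.nSimple_mulVec_e i.2 ((L.map goodG2.sPerm).prod s).2, smul_smul]
    rfl

/-- A monomial element inducing a rotation has trace `-1`. -/
theorem trace_rotation {n : GL (chevG2.Idx) K} (hn : n ∈ chevG2.monomialSubgroup K) {b : Bool}
    (hb : goodG2.perm n = goodG2.permW (rot b)) : (n : Matrix (chevG2.Idx) (chevG2.Idx) K).trace = -1 := by
  classical
  let L : List (Fin chevG2.rank) := cond b [⟨1, by decide⟩, ⟨0, by decide⟩, ⟨1, by decide⟩, ⟨0, by decide⟩]
    [⟨0, by decide⟩, ⟨1, by decide⟩, ⟨0, by decide⟩, ⟨1, by decide⟩]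
  have hL : (L.map goodG2.sPerm).prod = goodG2.permW (rot b) := by
    cases b <;> rfl
  have hd : (goodG2.nProd L)⁻¹ * n ∈ chevG2.diagonalSubgroup K := by
    rw [← goodG2.perm_eq_one_iff (mul_mem (inv_mem (goodG2.nProd_mem L)) hn),
      goodG2.perm_mul (inv_mem (goodG2.nProd_mem L)) hn, goodG2.perm_inv (goodG2.nProd_mem L), goodG2.perm_nProd, hL, hb, inv_mul_cancel]
  obtain ⟨z, hz⟩ := goodG2.mem_diagonal.1 hd
  have hn' : n = goodG2.nProd L * goodG2.torus z := by rw [← hz, mul_inv_cancel_left]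
  subst hn'
  rw [Units.val_mul, goodG2.coe_torus, Matrix.trace, Fintype.sum_sum_type]
  have hcol : ∀ x : chevG2.Idx, ((goodG2.nProd L : GL (chevG2.Idx) K) : Matrix (chevG2.Idx) (chevG2.Idx) K) *ᵥ bvec chevG2 K (code chevG2 x) =
      fun y => ((goodG2.nProd L : GL (chevG2.Idx) K) : Matrix (chevG2.Idx) (chevG2.Idx) K) y x := fun x => by
    rw [bvec_code, Matrix.mulVec_single_one]; rfl
  have hinr : ∑ s : Fin chevG2.nroots, ((((goodG2.nProd L : GL (chevG2.Idx) K) : Matrix (chevG2.Idx) (chevG2.Idx) K) *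
      rdiag chevG2 fun s => (goodG2.torusVal z s : K)).diag (Sum.inr s)) = 0 := by
    refine Finset.sum_eq_zero fun s _ => ?_
    obtain ⟨c, hc⟩ := nProd_mulVec_e (K := K) L s
    have e := congrFun (hcol (Sum.inr s)) (Sum.inr s)
    rw [show code chevG2 (Sum.inr s) = chevG2.rank + s.val from rfl, hc] at e
    have hne : (L.map goodG2.sPerm).prod s ≠ s := by
      rw [hL]
      intro h
      have h' := congrArg Fin.val h
      rw [goodG2.coe_permW_apply _ (rot_lt b) s] at h'
      have : ∀ b, ∀ s : Fin chevG2.nroots, appW' tabG2 (rot b) s.val ≠ s.val := by decide +kernel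
      exact this b s h'
    have hne' : ¬ chevG2.rank + s.val = chevG2.rank + ((L.map goodG2.sPerm).prod s).val := fun h =>
      hne (Fin.ext (Nat.add_left_cancel h).symm)
    rw [Matrix.diag_apply, rdiag, Matrix.mul_diagonal, ← e]
    have hne'' : ¬ s.val = ((L.map goodG2.sPerm).prod s).val := fun h => hne (Fin.ext h.symm)
    simp [bvec, code, hne'']
  have hinl : ∀ j : Fin chevG2.rank, (((goodG2.nProd L : GL (chevG2.Idx) K) : Matrix (chevG2.Idx) (chevG2.Idx) K) *
      rdiag chevG2 fun s => (goodG2.torusVal z s : K)).diag (Sum.inl j) =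
      (((goodG2.nProd L : GL (chevG2.Idx) K) : Matrix (chevG2.Idx) (chevG2.Idx) K) *ᵥ bvec chevG2 K j.val) (Sum.inl j) := fun j => by
    rw [Matrix.diag_apply, rdiag, Matrix.mul_diagonal]
    have := (congrFun (hcol (Sum.inl j)) (Sum.inl j)).symm
    rw [show code chevG2 (Sum.inl j) = j.val from rfl] at this
    simpa using this
  simp only [hinl, hinr, add_zero]
  rw [show (Finset.univ : Finset (Fin chevG2.rank)) = {⟨0, by decide⟩, ⟨1, by decide⟩} by decide,
    Finset.sum_insert (by decide), Finset.sum_singleton]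
  have h00 : chevG2.cartan 0 (chevG2.simple 0) = 2 := by decide +kernel
  have h10 : chevG2.cartan 1 (chevG2.simple 0) = -1 := by decide +kernel
  have h01 : chevG2.cartan 0 (chevG2.simple 1) = -3 := by decide +kernel
  have h11 : chevG2.cartan 1 (chevG2.simple 1) = 2 := by decide +kernel
  have m00 : chevG2.nMat K (chevG2.simple 0) 1 *ᵥ bvec chevG2 K 0 = -bvec chevG2 K 0 := by
    rw [goodG2.nSimple_mulVec_h (by decide) (by decide), h00]; push_cast; module
  have m10 : chevG2.nMat K (chevG2.simple 0) 1 *ᵥ bvec chevG2 K 1 = bvec chevG2 K 1 + bvec chevG2 K 0 := by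
    rw [goodG2.nSimple_mulVec_h (by decide) (by decide), h10]; push_cast; module
  have m01 : chevG2.nMat K (chevG2.simple 1) 1 *ᵥ bvec chevG2 K 0 = bvec chevG2 K 0 + (3 : K) • bvec chevG2 K 1 := by
    rw [goodG2.nSimple_mulVec_h (by decide) (by decide), h01]; push_cast; module
  have m11 : chevG2.nMat K (chevG2.simple 1) 1 *ᵥ bvec chevG2 K 1 = -bvec chevG2 K 1 := by
    rw [goodG2.nSimple_mulVec_h (by decide) (by decide), h11]; push_cast; module
  cases b <;>
    simp [L, Good.nProd, Units.val_mul, ← Matrix.mulVec_mulVec, goodG2.coe_ng, m00, m10, m01, m11, Matrix.mulVec_add,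
      Matrix.mulVec_smul, Matrix.mulVec_neg, bvec, code] <;> ring

end Cfsg.Agent.H88.AltG2
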