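import Cfsg.Agent.H88.AltSec.A8Nine
import Cfsg.Agent.H88.AltSec.G2Torus

/-!
# Alternating sections of the groups of type G₂

Outside characteristic 5 a 5-cycle has automizer of order 4, and `W(G₂)` has exponent 6. In characteristic 5 the
Sylow 3-subgroup of the normalizer of the torus cannot cover the automizer of `3²` in `A₈`.
-/

set_option autoImplicit false

namespace Cfsg.Agent.H88.AltG2

open Cfsg.Lie Cfsg.Agent.H46 Cfsg.Agent.H88.AutSec Cfsg.Agent.H88.ChevSylow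
open scoped Matrix MatrixGroups

section general

variable {H A : Type*} [Group H] [Finite H] [Group A]

/-- An element conjugating a subgroup of a finite group into itself normalizes it. -/
theorem mem_normalizer_of_le {P : Subgroup H} {g : H} (h : P.map (MulAut.conj g).toMonoidHom ≤ P) :
    g ∈ Subgroup.normalizer (P : Set H) := by
  have e : P.map (MulAut.conj g).toMonoidHom = P :=
    Subgroup.eq_of_le_of_card_ge h (le_of_eq (Nat.card_congr
      (P.equivMapOfInjective _ (MulEquiv.injective _)).toEquiv))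
  rw [Subgroup.mem_normalizer_iff]
  intro z
  conv_rhs => rw [← e]
  simp [Subgroup.mem_map, MulAut.conj_apply]

/-- In a group of odd exponent an element inverting `z` centralizes it. -/
theorem commute_of_conj_inv {x z : H} (hx : Odd (orderOf x)) (h : x * z * x⁻¹ = z⁻¹) : x * z = z * x := by
  obtain ⟨k, hk⟩ := hx
  have e2 : x ^ 2 * z * (x ^ 2)⁻¹ = z := by
    rw [show x ^ 2 * z * (x ^ 2)⁻¹ = x * (x * z * x⁻¹) * x⁻¹ by rw [sq]; group, h,
      show x * z⁻¹ * x⁻¹ = (x * z * x⁻¹)⁻¹ by group, h, inv_inv]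
  have hc : Commute (x ^ 2) z := mul_inv_eq_iff_eq_mul.1 e2
  have e1 : (x ^ 2) ^ (k + 1) = x := by
    rw [← pow_mul, show 2 * (k + 1) = orderOf x + 1 by omega, pow_succ, pow_orderOf_eq_one, one_mul]
  have := hc.pow_left (k + 1)
  rwa [e1] at this

/-- Frattini for the preimage of an `ℓ`-subgroup. -/
theorem exists_lift_subgroup (φ : H →* A) {ℓ : ℕ} [Fact ℓ.Prime] (Q : Subgroup A) (hQ : IsPGroup ℓ Q)
    (C : Subgroup H) (hC : ∀ y ∈ Q, ∃ x ∈ C, φ x = y) (P₀ : Subgroup H) (hP₀ : IsPGroup ℓ P₀)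
    (hP₀C : P₀ ≤ C) (hP₀Q : P₀ ≤ Q.comap φ) :
    ∃ P : Subgroup H, P₀ ≤ P ∧ P ≤ C ∧ P ≤ Q.comap φ ∧ IsPGroup ℓ P ∧ (∀ y ∈ Q, ∃ x ∈ P, φ x = y) ∧
      (∀ R : Subgroup H, IsPGroup ℓ R → R ≤ Q.comap φ → R ≤ C → ∃ c : H, ∀ x ∈ R, c * x * c⁻¹ ∈ P) ∧
      ∀ h₀ ∈ C, (∀ y ∈ Q, φ h₀ * y * (φ h₀)⁻¹ ∈ Q) →
        ∃ h ∈ C, h ∈ Subgroup.normalizer (P : Set H) ∧ φ h = φ h₀ := by
  classical
  set M := Q.comap φ ⊓ C with hM
  obtain ⟨S, hS⟩ := (hP₀.comap_subtype (K := M)).exists_le_sylow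
  set P := (S : Subgroup M).map M.subtype with hPdef
  have hPM : P ≤ M := Subgroup.map_subtype_le _
  let ψ : M →* Q := (φ.comp M.subtype).codRestrict Q fun m => (Subgroup.mem_inf.1 m.2).1
  have hψ : Function.Surjective ψ := fun y => by
    obtain ⟨x, hx, hxy⟩ := hC y y.2
    exact ⟨⟨x, Subgroup.mem_inf.2 ⟨by rw [Subgroup.mem_comap, hxy]; exact y.2, hx⟩⟩, Subtype.ext hxy⟩
  haveI : Finite Q := Finite.of_surjective ψ hψ
  have hmap : (S : Subgroup M).map ψ = ⊤ := by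
    rw [← Subgroup.index_eq_one]
    obtain ⟨k, hk⟩ := hQ.index ((S : Subgroup M).map ψ)
    have hdvd : ((S : Subgroup M).map ψ).index ∣ (S : Subgroup M).index := Subgroup.index_map_dvd _ hψ
    rcases Nat.eq_zero_or_pos k with rfl | hk0
    · simpa using hk
    · exact absurd ((dvd_pow_self ℓ hk0.ne').trans (hk ▸ hdvd)) S.not_dvd_index
  have honto : ∀ y ∈ Q, ∃ x ∈ P, φ x = y := fun y hy => by
    obtain ⟨m, hm, hmy⟩ := (Subgroup.eq_top_iff' _).1 hmap ⟨y, hy⟩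
    exact ⟨m, ⟨m, hm, rfl⟩, congrArg Subtype.val hmy⟩
  refine ⟨P, fun x hx => ?_, hPM.trans inf_le_right, hPM.trans inf_le_left, S.2.map _, honto,
    fun R hR hRQ hRC => ?_, fun h₀ hh₀C hh₀ => ?_⟩
  rotate_left
  · obtain ⟨c, hc⟩ := exists_conj_le (S : Subgroup M) S.not_dvd_index (hR.comap_subtype (K := M))
    exact ⟨c, fun x hx => ⟨_, hc ⟨x, Subgroup.mem_inf.2 ⟨hRQ hx, hRC hx⟩⟩ hx, rfl⟩⟩
  rotate_left
  · exact ⟨⟨x, Subgroup.mem_inf.2 ⟨hP₀Q hx, hP₀C hx⟩⟩, hS hx, rfl⟩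
  have hMc : ∀ m ∈ M, h₀ * m * h₀⁻¹ ∈ M := fun m hm => by
    rw [hM, Subgroup.mem_inf, Subgroup.mem_comap] at hm ⊢
    refine ⟨?_, mul_mem (mul_mem hh₀C hm.2) (inv_mem hh₀C)⟩
    rw [map_mul, map_mul, map_inv]
    exact hh₀ _ hm.1
  let c : M →* M :=
    { toFun := fun m => ⟨h₀ * m * h₀⁻¹, hMc m m.2⟩
      map_one' := Subtype.ext (by simp)
      map_mul' := fun a b => Subtype.ext (by simp [mul_assoc]) }
  have hc : Function.Injective c := fun a b h => Subtype.ext (by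
    have := congrArg Subtype.val h
    simpa [c] using this)
  obtain ⟨R, hR⟩ := (S.2.map c).exists_le_sylow
  have hRe : (S : Subgroup M).map c = R := by
    refine Subgroup.eq_of_le_of_card_ge hR ?_
    rw [← Nat.card_congr ((S : Subgroup M).equivMapOfInjective c hc).toEquiv, Sylow.card_eq_multiplicity,
      Sylow.card_eq_multiplicity]
  obtain ⟨m, hm⟩ := MulAction.exists_smul_eq M R S
  have hh1 : (m : H) * h₀ ∈ Subgroup.normalizer (P : Set H) := by
    apply mem_normalizer_of_le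
    rintro _ ⟨_, ⟨s, hs, rfl⟩, rfl⟩
    have e : m * c s * m⁻¹ ∈ (S : Subgroup M) := by
      rw [← hm]
      exact ⟨c s, hRe ▸ ⟨s, hs, rfl⟩, rfl⟩
    exact ⟨_, e, by simp [c, mul_assoc]⟩
  obtain ⟨x, hxP, hx⟩ := honto (φ (m : H)) (Subgroup.mem_inf.1 m.2).1
  refine ⟨x⁻¹ * ((m : H) * h₀), mul_mem (inv_mem (hPM.trans inf_le_right hxP))
    (mul_mem (Subgroup.mem_inf.1 m.2).2 hh₀C), mul_mem (inv_mem (Subgroup.le_normalizer hxP)) hh1, ?_⟩
  rw [map_mul, map_inv, hx, map_mul, inv_mul_cancel_left]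

end general

/-- The permutation of the roots, on the normalizer of the torus. -/
noncomputable def permHom (K : Type*) [Field K] :
    ↥(chevG2.monomialSubgroup K) →* Equiv.Perm (Fin chevG2.nroots) where
  toFun n := goodG2.perm (n : GL chevG2.Idx K)
  map_one' := goodG2.perm_eq goodG2.monRel_one
  map_mul' a b := goodG2.perm_mul a.2 b.2

section index

variable {K : Type*} [Field K] [Fintype K]

/-- The normalizer of the torus has index prime to 3. -/
theorem not_dvd_index_monomial (hq : 3 ∣ Fintype.card K - 1) :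
    ¬ 3 ∣ ((chevG2.monomialSubgroup K).subgroupOf (chevG2.group K)).index := by
  classical
  intro h3
  set T := (chevG2.diagonalSubgroup K).subgroupOf (chevG2.group K) with hT
  set N := (chevG2.monomialSubgroup K).subgroupOf (chevG2.group K) with hN
  have hTN : T ≤ N := fun x hx => by
    rw [hN, Subgroup.mem_subgroupOf, goodG2.monomial_eq]; exact Subgroup.mem_sup_left hx
  have hidx : T.index = Fintype.card K ^ (chevG2.nroots / 2) *
      ∑ σ ∈ goodG2.finW chevG2.rank, Fintype.card K ^ goodG2.nInv σ := by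
    have e := Subgroup.card_mul_index T
    rw [Nat.card_congr (Subgroup.subgroupOfEquivOfLe goodG2.diagonal_le_group).toEquiv] at e
    refine Nat.eq_of_mul_eq_mul_left (Nat.card_pos (α := chevG2.diagonalSubgroup K)) ?_
    rw [e, goodG2.card_group (F := K), goodG2.card_borel]
    ring
  have hk3 : 3 ∣ T.relIndex N := by
    obtain ⟨n, hn, hnp⟩ := goodG2.exists_lift K (rot false)
    let ψ : ↥(N) →* Equiv.Perm (Fin chevG2.nroots) :=
      (permHom K).comp ((((chevG2.group K).subtype).comp N.subtype).codRestrict _ fun x => x.2)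
    have hker : T.subgroupOf N = ψ.ker := by
      ext x
      rw [MonoidHom.mem_ker, Subgroup.mem_subgroupOf, hT, Subgroup.mem_subgroupOf]
      exact (goodG2.perm_eq_one_iff x.2).symm
    rw [Subgroup.relIndex, hker, Subgroup.index_ker]
    have hmem : goodG2.permW (rot false) ∈ ψ.range :=
      ⟨⟨⟨n, goodG2.monomial_le_group hn⟩, hn⟩, hnp⟩
    have ho : orderOf (goodG2.permW (rot false)) = 3 := by
      haveI : Fact (Nat.Prime 3) := ⟨Nat.prime_three⟩
      refine orderOf_eq_prime ?_ fun h1 => ?_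
      · rw [permW_pow goodG2]
        refine goodG2.permW_eq_one fun i => ?_
        have e : goodG2.permW (List.replicate 3 (rot false)).flatten (goodG2.simpleF i) = goodG2.simpleF i :=
          Fin.ext (by
            rw [goodG2.coe_permW_apply _ (by decide +kernel)]
            revert i; decide +kernel)
        rw [e]; exact goodG2.isPosRoot_simple i.2
      · have h7 := congrArg Fin.val (Equiv.Perm.congr_fun h1 (⟨7, by decide⟩ : Fin chevG2.nroots))
        rw [goodG2.coe_permW_apply _ (rot_lt false)] at h7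
        exact absurd h7 (by decide +kernel)
    have := orderOf_dvd_natCard (⟨_, hmem⟩ : ψ.range)
    rwa [← Subgroup.orderOf_coe, ho] at this
  have h9 : 9 ∣ T.index := by
    rw [← Subgroup.relIndex_mul_index hTN, show 9 = 3 * 3 from rfl]
    exact mul_dvd_mul hk3 h3
  rw [hidx] at h9
  set q := Fintype.card K
  have hq1 : 1 ≤ q := Fintype.card_pos
  have hsum : ((∑ σ ∈ goodG2.finW chevG2.rank, q ^ goodG2.nInv σ : ℕ) : ℤ) =
      evP (chainPoly weylG2 chevG2.rank) (q : ℤ) := by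
    push_cast
    exact goodG2.sum_finW (cert := weylG2) chkWeyl_G2 (q : ℤ) chevG2.rank le_rfl
  have h9' : (((q : ℕ) : ZMod 9)) ^ (chevG2.nroots / 2) * evP (chainPoly weylG2 chevG2.rank) ((q : ℕ) : ZMod 9) = 0 := by
    have e := (CharP.cast_eq_zero_iff (ZMod 9) 9 _).2 h9
    have hcast : ∀ L : List ℤ, ((evP L (q : ℤ) : ℤ) : ZMod 9) = evP L ((q : ℕ) : ZMod 9) := fun L => by
      induction L with
      | nil => simp [evP]
      | cons x L ih => simp [evP, ih]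
    rw [← hcast, ← hsum]
    push_cast at e ⊢
    exact e
  have hmod : ∀ x : ZMod 9, x = 1 ∨ x = 4 ∨ x = 7 →
      x ^ (chevG2.nroots / 2) * evP (chainPoly weylG2 chevG2.rank) x ≠ 0 := by decide +kernel
  refine hmod _ ?_ h9'
  obtain ⟨t, ht⟩ := hq
  rw [show q = 3 * t + 1 by omega]
  push_cast
  generalize (t : ZMod 9) = u
  revert u
  decide

end index

/-- A homomorphism with at most three values. -/
theorem card_le_three_mul {P B : Type*} [Group P] [Finite P] [Group B] (ψ : P →* B) (u v : B)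
    (h : ∀ x, ψ x = 1 ∨ ψ x = u ∨ ψ x = v) : Nat.card P ≤ 3 * Nat.card ψ.ker := by
  classical
  rw [← Subgroup.card_mul_index ψ.ker, Subgroup.index_ker, mul_comm 3]
  refine Nat.mul_le_mul_left _ ?_
  have hsub : (ψ.range : Set B) ⊆ (({1, u, v} : Finset B) : Set B) := by
    rintro _ ⟨x, rfl⟩
    simpa using h x
  calc Nat.card ψ.range = Set.ncard (ψ.range : Set B) := Nat.card_coe_set_eq _
    _ ≤ Set.ncard (({1, u, v} : Finset B) : Set B) := Set.ncard_le_ncard hsub (Finset.finite_toSet _)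
    _ ≤ 3 := by rw [Set.ncard_coe_finset]; exact Finset.card_le_three

variable {F : Type*} [Field F] [Fintype F] {r : ℕ}

/-- No alternating section of degree at least 7 outside characteristic 5. -/
theorem not_seven (p : ℕ) [Fact p.Prime] [CharP F p] (hp : p ≠ 5) {H : Subgroup ↥(chevG2.group F)}
    (φ : ↥H →* alternatingGroup (Fin r)) (hφ : Function.Surjective φ) (hr : 7 ≤ r) : False := by
  haveI : Fact (Nat.Prime 5) := ⟨by norm_num⟩
  obtain ⟨K, _, _, _, f, hK⟩ := exists_extension F p 5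
    (fun h => hp ((Nat.prime_dvd_prime_iff_eq Fact.out (by norm_num)).1 h))
  have hG : AutPow ↥H 5 6 :=
    (autPow goodG2 hK (by rw [finW_card]; norm_num) fun σ hσ => weyl_pow hσ).comap
      ((mapHom chevG2 f).comp H.subtype) ((mapHom_injective chevG2 f).comp Subtype.val_injective)
  let y : alternatingGroup (Fin 7) := ⟨⟨![1, 2, 3, 4, 0, 5, 6], ![4, 0, 1, 2, 3, 5, 6], by decide, by decide⟩,
    Equiv.Perm.mem_alternatingGroup.2 (by decide +kernel)⟩
  let a : alternatingGroup (Fin 7) := ⟨⟨![0, 2, 4, 1, 3, 6, 5], ![0, 3, 1, 4, 2, 6, 5], by decide, by decide⟩,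
    Equiv.Perm.mem_alternatingGroup.2 (by decide +kernel)⟩
  refine no_section hG φ hφ (y := altEmbed hr y) (a := altEmbed hr a) (k := 1) ?_ ?_ ?_
  · rw [← map_pow, show y ^ 5 ^ 1 = 1 by decide +kernel, map_one]
  · rw [← map_inv, ← map_mul, ← map_mul, show a * y * a⁻¹ = y ^ 2 by decide +kernel, map_pow]
    exact Subgroup.pow_mem _ (Subgroup.mem_zpowers _) 2
  · rw [← map_pow, ← map_mul, ← map_mul]
    exact fun h => absurd (altEmbed_injective hr h) (by decide +kernel)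

/-- A subgroup of order at most three consists of the powers of any nontrivial element. -/
theorem mem_three {G₀ : Type*} [Group G₀] [Finite G₀] {Z : Subgroup G₀} (hZ : IsPGroup 3 Z) (hc : Nat.card Z ≤ 3)
    {z y : G₀} (hz : z ∈ Z) (hy : y ∈ Z) (hz1 : z ≠ 1) : y = 1 ∨ y = z ∨ y = z⁻¹ := by
  classical
  haveI : Fact (Nat.Prime 3) := ⟨Nat.prime_three⟩
  haveI : Fintype Z := Fintype.ofFinite Z
  by_contra h
  push Not at h
  have hne : z⁻¹ ≠ z := fun h' => hz1 (by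
    obtain ⟨k, hk⟩ := hZ ⟨z, hz⟩
    have hk' : z ^ 3 ^ k = 1 := congrArg Subtype.val hk
    have hz2 : z ^ 2 = 1 := by rw [sq]; nth_rewrite 1 [← h']; exact inv_mul_cancel z
    have := pow_gcd_eq_one.2 ⟨hz2, hk'⟩
    rwa [((by norm_num : Nat.Coprime 2 3).pow_right k).gcd_eq_one, pow_one] at this)
  have hzi : z⁻¹ ≠ 1 := inv_ne_one.2 hz1
  have hsub : ({(1 : G₀), z, z⁻¹, y} : Finset G₀) ⊆ (Finset.univ : Finset Z).map ⟨Subtype.val, Subtype.val_injective⟩ := by
    intro a ha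
    simp only [Finset.mem_insert, Finset.mem_singleton] at ha
    simp only [Finset.mem_map, Finset.mem_univ, true_and]
    rcases ha with rfl | rfl | rfl | rfl
    exacts [⟨1, rfl⟩, ⟨⟨_, hz⟩, rfl⟩, ⟨⟨_, inv_mem hz⟩, rfl⟩, ⟨⟨_, hy⟩, rfl⟩]
  have h4 := Finset.card_le_card hsub
  rw [Finset.card_map, Finset.card_univ, Finset.card_insert_of_notMem (by simp [Ne.symm hz1, Ne.symm hzi, Ne.symm h.1]),
    Finset.card_insert_of_notMem (by simp [Ne.symm hne, Ne.symm h.2.1]),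
    Finset.card_insert_of_notMem (by simp [Ne.symm h.2.2]), Finset.card_singleton] at h4
  rw [Nat.card_eq_fintype_card] at hc
  omega

/-- The square of an element normalizing a subgroup of order at most three centralizes it. -/
theorem sq_mem_centralizer {G₀ : Type*} [Group G₀] [Finite G₀] {Z : Subgroup G₀} (hZ : IsPGroup 3 Z)
    (hc : Nat.card Z ≤ 3) {g : G₀} (hg : g ∈ Subgroup.normalizer (Z : Set G₀)) :
    g * g ∈ Subgroup.centralizer (Z : Set G₀) := by
  refine Subgroup.mem_centralizer_iff.2 fun z hz => ?_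
  by_cases hz1 : z = 1
  · simp [hz1]
  have h' : g * z * g⁻¹ ∈ Z := (Subgroup.mem_normalizer_iff.1 hg z).1 hz
  have e : g * g * z * (g * g)⁻¹ = z := by
    rw [show g * g * z * (g * g)⁻¹ = g * (g * z * g⁻¹) * g⁻¹ by group]
    rcases mem_three hZ hc hz h' hz1 with h1 | h1 | h1
    · exact absurd (conj_eq_one_iff.1 h1) hz1
    · rw [h1, h1]
    · rw [h1, show g * z⁻¹ * g⁻¹ = (g * z * g⁻¹)⁻¹ by group, h1, inv_inv]
  exact (mul_inv_eq_iff_eq_mul.1 e).symm

/-- A normal subgroup of order at most three of a 3-group is central. -/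
theorem central_three {G₀ : Type*} [Group G₀] [Finite G₀] (hG : IsPGroup 3 G₀) (Z : Subgroup G₀) [hn : Z.Normal]
    (hc : Nat.card Z ≤ 3) {z : G₀} (hz : z ∈ Z) (x : G₀) : x * z = z * x := by
  by_cases hz1 : z = 1
  · simp [hz1]
  rcases mem_three (hG.to_subgroup Z) hc hz (hn.conj_mem z hz x) hz1 with h1 | h1 | h1
  · exact absurd (conj_eq_one_iff.1 h1) hz1
  · exact mul_inv_eq_iff_eq_mul.1 h1
  · refine commute_of_conj_inv ?_ h1
    obtain ⟨k, hk⟩ := hG x
    exact Odd.of_dvd_nat ((by decide : Odd 3).pow) (orderOf_dvd_of_pow_eq_one hk)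

/-- An element centralizing the commutator of `u₁`, `u₂` which inverts `u₁` and fixes `u₂` modulo the centre. -/
theorem inv_comm_fixed {G₀ : Type*} [Group G₀] {P : Subgroup G₀} {u₁ u₂ g : G₀} (hu₁ : u₁ ∈ P) (hu₂ : u₂ ∈ P)
    (hc : ∀ y ∈ P, Commute (u₁ * u₂ * u₁⁻¹ * u₂⁻¹) y) (hg : g * (u₁ * u₂ * u₁⁻¹ * u₂⁻¹) * g⁻¹ = u₁ * u₂ * u₁⁻¹ * u₂⁻¹)
    (ha₁ : ∀ y ∈ P, Commute (u₁ * (g * u₁ * g⁻¹)) y) (ha₂ : ∀ y ∈ P, Commute (u₂⁻¹ * (g * u₂ * g⁻¹)) y)
    (ha₂P : u₂⁻¹ * (g * u₂ * g⁻¹) ∈ P) :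
    u₁ * u₂ * u₁⁻¹ * u₂⁻¹ = (u₁ * u₂ * u₁⁻¹ * u₂⁻¹)⁻¹ := by
  set c := u₁ * u₂ * u₁⁻¹ * u₂⁻¹ with hcdef
  set a₁ := u₁ * (g * u₁ * g⁻¹) with ha₁d
  set a₂ := u₂⁻¹ * (g * u₂ * g⁻¹) with ha₂d
  have e1 : g * c * g⁻¹ = (u₁⁻¹ * a₁) * (u₂ * a₂) * (u₁⁻¹ * a₁)⁻¹ * (u₂ * a₂)⁻¹ := by
    rw [ha₁d, ha₂d, hcdef]; group
  have e2 : (u₁⁻¹ * a₁) * (u₂ * a₂) * (u₁⁻¹ * a₁)⁻¹ * (u₂ * a₂)⁻¹ = u₁⁻¹ * u₂ * u₁ * u₂⁻¹ := by
    calc _ = u₁⁻¹ * (a₁ * (u₂ * a₂)) * a₁⁻¹ * u₁ * a₂⁻¹ * u₂⁻¹ := by group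
      _ = u₁⁻¹ * ((u₂ * a₂) * a₁) * a₁⁻¹ * u₁ * a₂⁻¹ * u₂⁻¹ := by rw [(ha₁ _ (mul_mem hu₂ ha₂P)).eq]
      _ = u₁⁻¹ * u₂ * (a₂ * u₁) * a₂⁻¹ * u₂⁻¹ := by group
      _ = u₁⁻¹ * u₂ * (u₁ * a₂) * a₂⁻¹ * u₂⁻¹ := by rw [(ha₂ u₁ hu₁).eq]
      _ = _ := by group
  have e3 : u₁⁻¹ * u₂ * u₁ * u₂⁻¹ = c⁻¹ := by
    have h' : u₁⁻¹ * c⁻¹ * u₁ = c⁻¹ := by
      rw [mul_assoc, ((hc u₁ hu₁).inv_left).eq, inv_mul_cancel_left]
    rw [← h', hcdef]; group
  rw [← e3, ← e2, ← e1, hg]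

/-- The two rotations are inverse to each other. -/
theorem rot_mul (b : Bool) : goodG2.permW (rot b) * goodG2.permW (rot !b) = 1 := by
  rw [← goodG2.permW_append]
  refine goodG2.permW_eq_one fun i => ?_
  have e' : ∀ b, ∀ i : Fin chevG2.rank, appW' tabG2 (rot b ++ rot !b) (chevG2.simple i) = chevG2.simple i := by
    decide +kernel
  have hlt : ∀ b, ∀ j ∈ rot b ++ rot !b, j < chevG2.rank := by decide +kernel
  rw [show goodG2.permW (rot b ++ rot !b) (goodG2.simpleF i) = goodG2.simpleF i from Fin.ext (by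
    rw [goodG2.coe_permW_apply _ (hlt b)]; exact e' b i)]
  exact goodG2.isPosRoot_simple i.2

set_option maxHeartbeats 1000000 in
/-- A 3-group in the normalizer of the torus covering `3²` with the automizer: it is small and nonabelian. -/
theorem geometry {K : Type*} [Field K] [Fintype K] [CharP K 5] {H : Type*} [Group H] [Finite H]
    (φ : H →* alternatingGroup (Fin r)) (hr : 8 ≤ r) (ι : H →* ↥(chevG2.group K)) (hinj : Function.Injective ι)
    {P : Subgroup H} (hP : IsPGroup 3 P) (hPQ : P ≤ (Q8.map (altEmbed hr)).comap φ)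
    (honto : ∀ y ∈ Q8.map (altEmbed hr), ∃ x ∈ P, φ x = y)
    (hN : ∀ x ∈ P, (ι x : GL chevG2.Idx K) ∈ chevG2.monomialSubgroup K) {h : H}
    (hhN : h ∈ Subgroup.normalizer (P : Set H)) (hhe : φ h = altEmbed hr aa) :
    Nat.card P ≤ 27 ∧ ∃ v ∈ P, ∃ t ∈ P, ¬ Commute v t := by
  classical
  haveI : Fact (Nat.Prime 3) := ⟨Nat.prime_three⟩
  set e := altEmbed hr with he
  have hei : Function.Injective e := altEmbed_injective hr
  let π : ↥P →* Equiv.Perm (Fin chevG2.nroots) :=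
    (permHom K).comp ((((chevG2.group K).subtype.comp ι).comp P.subtype).codRestrict _ fun x => hN x x.2)
  have hπval : ∀ x : P, π x = 1 ∨ π x = goodG2.permW (rot false) ∨ π x = goodG2.permW (rot true) := fun x => by
    have hσ : π x ∈ goodG2.finW chevG2.rank := goodG2.perm_mem_finW (hN x x.2)
    have h3 : π x ^ 3 = 1 := by
      obtain ⟨k, hk⟩ := hP x
      have h6 := weyl_pow hσ
      have hk' : π x ^ 3 ^ k = 1 := by rw [← map_pow, hk, map_one]
      have := pow_gcd_eq_one.2 ⟨h6, hk'⟩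
      rcases Nat.eq_zero_or_pos k with rfl | hk0
      · rw [pow_zero, pow_one] at hk'
        rw [hk', one_pow]
      · have hg3 : Nat.gcd 6 (3 ^ k) = 3 := by
          refine Nat.dvd_antisymm ?_ (Nat.dvd_gcd (by norm_num) (dvd_pow_self 3 hk0.ne'))
          have h1 : Nat.gcd 6 (3 ^ k) ∣ 3 ^ k := Nat.gcd_dvd_right _ _
          have h2 : Nat.Coprime (Nat.gcd 6 (3 ^ k)) 2 :=
            Nat.Coprime.coprime_dvd_left h1 ((by norm_num : Nat.Coprime 3 2).pow_left k)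
          exact h2.dvd_of_dvd_mul_left (show Nat.gcd 6 (3 ^ k) ∣ 2 * 3 from Nat.gcd_dvd_left _ _)
        rwa [hg3] at this
    rcases weyl_cube hσ h3 with h | ⟨b, hb⟩
    · exact Or.inl h
    · cases b
      exacts [Or.inr (Or.inl hb), Or.inr (Or.inr hb)]
  have hπT : ∀ x : P, π x = 1 ↔ (ι x : GL chevG2.Idx K) ∈ chevG2.diagonalSubgroup K :=
    fun x => goodG2.perm_eq_one_iff (hN x x.2)
  obtain ⟨u1, hu1, hu1e⟩ := honto (e x1) ⟨x1, x1_mem, rfl⟩
  obtain ⟨u2, hu2, hu2e⟩ := honto (e x2) ⟨x2, x2_mem, rfl⟩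
  -- a torus element of P outside the kernel
  have hR1 : ∃ x : P, π x = 1 ∧ φ x ≠ 1 := by
    by_contra hcon
    push Not at hcon
    have hne : ∀ x : alternatingGroup (Fin 8), x ≠ 1 → e x ≠ 1 := fun x hx h => hx (hei (h.trans (map_one e).symm))
    have key : ∀ (u : P) (x : alternatingGroup (Fin 8)), x ≠ 1 → φ u = e x → π u ≠ 1 := fun u x hx hu h =>
      hne x hx (hu ▸ hcon u h)
    have k1 := key ⟨u1, hu1⟩ x1 elt_facts.1 hu1e
    have k2 := key ⟨u2, hu2⟩ x2 elt_facts.2.1 hu2e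
    have k3 := key (⟨u1, hu1⟩ * ⟨u2, hu2⟩) (x1 * x2) elt_facts.2.2.1 (by simp [hu1e, hu2e])
    have k4 := key (⟨u1, hu1⟩ * ⟨u2, hu2⟩⁻¹) (x1 * x2⁻¹) elt_facts.2.2.2.1 (by simp [hu1e, hu2e])
    rw [map_mul] at k3 k4
    rw [map_inv] at k4
    have hprod := And.intro (rot_mul false) (rot_mul true)
    simp only [Bool.not_false, Bool.not_true] at hprod
    rcases hπval ⟨u1, hu1⟩ with h1 | h1 | h1 <;> rcases hπval ⟨u2, hu2⟩ with h2 | h2 | h2 <;>
      rw [h1, h2] at k3 k4 <;>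
      first | exact k1 h1 | exact k2 h2 | exact k4 (mul_inv_cancel _) | exact k3 hprod.1 | exact k3 hprod.2
  -- the automizer element moves some torus element of P out of the torus
  have hhP : ∀ x ∈ P, h * x * h⁻¹ ∈ P := fun x hx => (Subgroup.mem_normalizer_iff.1 hhN x).1 hx
  by_cases hstab : ∀ x : P, π x = 1 → π ⟨h * x * h⁻¹, hhP x x.2⟩ = 1
  · obtain ⟨x, hx, hxne⟩ := hR1
    set R := π.ker.map P.subtype with hRdef
    have hhR : h ∈ Subgroup.normalizer (R : Set H) := by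
      refine mem_normalizer_of_le ?_
      rintro _ ⟨_, ⟨z, hz, rfl⟩, rfl⟩
      exact ⟨⟨_, hhP z z.2⟩, hstab z hz, rfl⟩
    obtain ⟨σ, hσ, h6, -⟩ := automizer goodG2 (P := R.map ι) 1 (by
        rintro _ ⟨_, ⟨z, hz, rfl⟩, rfl⟩
        simpa using (hπT z).1 hz)
      (Subgroup.le_normalizer_map ι (Subgroup.mem_map_of_mem ι hhR))
    have := h6 6 (weyl_pow hσ) (ι x) (Subgroup.mem_map_of_mem ι ⟨x, hx, rfl⟩)
    rw [← map_pow, ← map_mul, ← map_mul] at this
    have := congrArg φ (hinj this)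
    rw [map_mul, map_mul, map_pow, hhe] at this
    obtain ⟨y, hy, hye⟩ := hPQ x.2
    rw [← hye, ← map_pow, ← map_mul, ← map_mul] at this
    have hinv := aa_inverts
    exact (hxne (by rw [← hye, hinv y hy (hei this), map_one])).elim
  push Not at hstab
  obtain ⟨t, ht, hw⟩ := hstab
  set w : P := ⟨h * t * h⁻¹, hhP t t.2⟩ with hwdef
  obtain ⟨b, hb⟩ : ∃ b, π w = goodG2.permW (rot b) := by
    rcases hπval w with h' | h' | h'
    exacts [absurd h' hw, ⟨_, h'⟩, ⟨_, h'⟩]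
  have htne : ι t ≠ 1 := fun h' => hw (by
    have : (t : H) = 1 := hinj (h'.trans (map_one ι).symm)
    rw [show w = 1 from Subtype.ext (by simp [hwdef, this]), map_one])
  -- t does not commute with w: compare traces
  have hnc : ¬ Commute (w : H) t := by
    intro hc
    have hc' : (ι w : GL chevG2.Idx K) * (ι t : GL chevG2.Idx K) = (ι t : GL chevG2.Idx K) * (ι w : GL chevG2.Idx K) := by
      rw [← Subgroup.coe_mul, ← Subgroup.coe_mul, ← map_mul, ← map_mul, hc.eq]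
    have e5 := trace_fixed (hN w w.2) hb ((hπT t).1 ht) hc' (fun h' => htne (Subtype.ext h'))
    have e1 := trace_rotation (hN w w.2) hb
    have hconj : ((ι w : ↥(chevG2.group K)) : GL chevG2.Idx K) = (ι h : GL chevG2.Idx K) * (ι t : GL chevG2.Idx K) *
        ((ι h : GL chevG2.Idx K))⁻¹ := by
      rw [← Subgroup.coe_inv, ← Subgroup.coe_mul, ← Subgroup.coe_mul, ← map_inv, ← map_mul, ← map_mul]
    rw [hconj, Units.val_mul, Units.val_mul, Matrix.trace_units_conj, e5] at e1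
    have h5 : (5 : K) = 0 := by exact_mod_cast CharP.cast_eq_zero K 5
    rw [h5, eq_comm, neg_eq_zero] at e1
    exact one_ne_zero e1
  -- size of P
  let π' : ↥P →* Equiv.Perm (Fin chevG2.nroots) :=
    { toFun := fun x => π ⟨h⁻¹ * x * h, by
        simpa using (Subgroup.mem_normalizer_iff.1 (inv_mem hhN) x).1 x.2⟩
      map_one' := by rw [← map_one π]; congr 1; exact Subtype.ext (by simp)
      map_mul' := fun x y => by rw [← map_mul π]; congr 1; exact Subtype.ext (by simp [mul_assoc]) }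
  have hcomm_w : ∀ x : P, π' x = 1 → Commute (w : H) x := fun x hx => by
    have h1 := (hπT _).1 hx
    have h2 := (hπT t).1 ht
    have e := goodG2.diagonal_comm h2 h1
    rw [← Subgroup.coe_mul, ← Subgroup.coe_mul, ← map_mul, ← map_mul] at e
    have e' : (t : H) * (h⁻¹ * x * h) = (h⁻¹ * x * h) * t := hinj (Subtype.ext e)
    show h * t * h⁻¹ * x = x * (h * t * h⁻¹)
    calc h * t * h⁻¹ * x = h * (t * (h⁻¹ * x * h)) * h⁻¹ := by group
      _ = h * ((h⁻¹ * x * h) * t) * h⁻¹ := by rw [e']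
      _ = x * (h * t * h⁻¹) := by group
  let π'' : ↥π.ker →* Equiv.Perm (Fin chevG2.nroots) := π'.comp π.ker.subtype
  have hfix : Nat.card π''.ker ≤ 3 := by
    haveI : Fintype π''.ker := Fintype.ofFinite _
    let m : π''.ker → GL chevG2.Idx K := fun x => (ι (x.1.1 : H) : GL chevG2.Idx K)
    have hm : Function.Injective m := fun x y hxy =>
      Subtype.ext (Subtype.ext (Subtype.ext (hinj (Subtype.ext hxy))))
    rw [Nat.card_eq_fintype_card, ← Finset.card_univ, ← Finset.card_image_of_injective _ hm]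
    refine card_fixed_le (hN w w.2) hb _ fun y hy => ?_
    obtain ⟨x, -, rfl⟩ := Finset.mem_image.1 hy
    refine ⟨(hπT x.1.1).1 x.1.2, ?_⟩
    show (ι w : GL chevG2.Idx K) * (ι x.1.1 : GL chevG2.Idx K) = (ι x.1.1 : GL chevG2.Idx K) * (ι w : GL chevG2.Idx K)
    rw [← Subgroup.coe_mul, ← Subgroup.coe_mul, ← map_mul, ← map_mul, (hcomm_w x.1.1 x.2).eq]
  have hP27 : Nat.card P ≤ 27 := by
    have a1 := card_le_three_mul π _ _ hπval
    have a2 := card_le_three_mul π'' _ _ (fun x => hπval _)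
    omega
  exact ⟨hP27, w, w.2, t, t.2, hnc⟩

set_option maxHeartbeats 1000000 in
/-- No alternating section of degree at least 8 in characteristic 5. -/
theorem not_eight [CharP F 5] {H : Subgroup ↥(chevG2.group F)}
    (φ : ↥H →* alternatingGroup (Fin r)) (hφ : Function.Surjective φ) (hr : 8 ≤ r) : False := by
  classical
  haveI : Fact (Nat.Prime 5) := ⟨by norm_num⟩
  haveI : Fact (Nat.Prime 3) := ⟨by norm_num⟩
  obtain ⟨K, _, _, _, f, hK⟩ := exists_extension F 5 3 (by norm_num)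
  set e := altEmbed hr with he
  have hei : Function.Injective e := altEmbed_injective hr
  set Q := Q8.map e with hQdef
  have hQc : Nat.card Q = 9 := by
    rw [← Nat.card_congr (Q8.equivMapOfInjective e hei).toEquiv, card_Q8]
  have hQp : IsPGroup 3 Q := IsPGroup.of_card (n := 2) (by rw [hQc]; rfl)
  have hQnorm : ∀ g : alternatingGroup (Fin 8), (∀ x ∈ nine, g * x * g⁻¹ ∈ nine) →
      ∀ y ∈ Q, e g * y * (e g)⁻¹ ∈ Q := by
    rintro g hg _ ⟨x, hx, rfl⟩
    exact ⟨_, hg x hx, by simp⟩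
  have hnorm_b := nine_conj_cc
  have hnorm_a := nine_conj_aa
  obtain ⟨P, -, -, hPQ, hP, honto, hPsyl, hlift⟩ := exists_lift_subgroup φ Q hQp ⊤
    (fun y hy => (hφ y).elim fun x hx => ⟨x, Subgroup.mem_top x, hx⟩) ⊥ (IsPGroup.of_bot) bot_le bot_le
  obtain ⟨h₀, hh₀⟩ := hφ (e aa)
  obtain ⟨h, -, hhN, hhe⟩ := hlift h₀ (Subgroup.mem_top _) (by rw [hh₀]; exact hQnorm aa hnorm_a)
  rw [hh₀] at hhe
  -- conjugate into the normalizer of the torus
  set ι₀ := (mapHom chevG2 f).comp H.subtype with hι₀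
  obtain ⟨g, hg⟩ := exists_conj_le _ (not_dvd_index_monomial hK) (hP.map ι₀)
  set ι := (MulAut.conj g).toMonoidHom.comp ι₀ with hι
  have hinj : Function.Injective ι :=
    (MulAut.conj g).injective.comp ((mapHom_injective chevG2 f).comp Subtype.val_injective)
  have hN : ∀ x ∈ P, (ι x : GL chevG2.Idx K) ∈ chevG2.monomialSubgroup K := fun x hx => by
    have := hg (ι₀ x) (Subgroup.mem_map_of_mem ι₀ hx)
    rwa [Subgroup.mem_subgroupOf] at this
  obtain ⟨hP27, v, hv, t₀, ht₀, hnc⟩ := geometry φ hr ι hinj hP hPQ honto hN hhN hhe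
  set w : P := ⟨v, hv⟩
  set t : P := ⟨t₀, ht₀⟩
  have hnc' : ¬ Commute (w : ↥H) (t : ↥H) := hnc
  obtain ⟨u1, hu1, hu1e⟩ := honto (e x1) ⟨x1, x1_mem, rfl⟩
  obtain ⟨u2, hu2, hu2e⟩ := honto (e x2) ⟨x2, x2_mem, rfl⟩
  -- the kernel part
  let ψ : ↥P →* Q := (φ.comp P.subtype).codRestrict Q fun x => hPQ x.2
  have hψ : Function.Surjective ψ := fun y => by
    obtain ⟨x, hx, hxy⟩ := honto y y.2
    exact ⟨⟨x, hx⟩, Subtype.ext hxy⟩
  have hZ3 : Nat.card ψ.ker ≤ 3 := by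
    have e := Subgroup.card_mul_index ψ.ker
    rw [Subgroup.index_ker, MonoidHom.range_eq_top.2 hψ, Subgroup.card_top, hQc] at e
    omega
  have hzc : ∀ z ∈ ψ.ker, ∀ x : P, x * z = z * x := fun z hz x => central_three hP ψ.ker hZ3 hz x
  set c := (u1 * u2 * u1⁻¹ * u2⁻¹ : ↥H) with hcdef
  have hcP : c ∈ P := mul_mem (mul_mem (mul_mem hu1 hu2) (inv_mem hu1)) (inv_mem hu2)
  have hck : (⟨c, hcP⟩ : P) ∈ ψ.ker := Subtype.ext (by
    show φ c = 1
    rw [hcdef, map_mul, map_mul, map_mul, map_inv, map_inv, hu1e, hu2e, ← map_inv, ← map_inv, ← map_mul,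
      ← map_mul, ← map_mul, elt_facts.2.2.2.2.1, map_one])
  have hdecomp : ∀ x : P, ∃ (i j : ℕ) (z : P), z ∈ ψ.ker ∧ x = ⟨u1, hu1⟩ ^ i * ⟨u2, hu2⟩ ^ j * z := fun x => by
    obtain ⟨y, hy, hye⟩ := hPQ x.2
    have hij := nine_pow
    obtain ⟨i, j, rfl⟩ := hij y hy
    refine ⟨i.val, j.val, (⟨u1, hu1⟩ ^ i.val * ⟨u2, hu2⟩ ^ j.val)⁻¹ * x, Subtype.ext ?_, by group⟩
    show φ ((u1 ^ i.val * u2 ^ j.val)⁻¹ * x) = 1
    rw [map_mul, map_inv, map_mul, map_pow, map_pow, hu1e, hu2e, ← hye, ← map_pow, ← map_pow, ← map_mul,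
      inv_mul_cancel]
  have hc1 : c ≠ 1 := by
    intro hc
    have hu : Commute u1 u2 := by
      rw [hcdef, mul_inv_eq_one, mul_inv_eq_iff_eq_mul] at hc
      exact hc
    apply hnc'
    obtain ⟨i, j, z, hz, ew⟩ := hdecomp w
    obtain ⟨i', j', z', hz', et⟩ := hdecomp t
    have hcz : ∀ (x : P), Commute ((z : P) : ↥H) x := fun x => (congrArg Subtype.val (hzc z hz x)).symm
    have hcz' : ∀ (x : P), Commute ((z' : P) : ↥H) x := fun x => (congrArg Subtype.val (hzc z' hz' x)).symm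
    rw [congrArg Subtype.val et, congrArg Subtype.val ew]
    simp only [Subgroup.coe_mul, Subgroup.coe_pow]
    refine Commute.mul_left (Commute.mul_right ?_ ?_) (Commute.mul_right ?_ (hcz z'))
    · refine Commute.mul_right ?_ ?_ <;> refine Commute.mul_left ?_ ?_
      exacts [Commute.pow_pow (Commute.refl _) _ _, Commute.pow_pow hu.symm _ _, Commute.pow_pow hu _ _,
        Commute.pow_pow (Commute.refl _) _ _]
    · exact ((hcz' ⟨u1, hu1⟩).symm.pow_left i).mul_left ((hcz' ⟨u2, hu2⟩).symm.pow_left j)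
    · exact ((hcz ⟨u1, hu1⟩).pow_right i').mul_right ((hcz ⟨u2, hu2⟩).pow_right j')
  -- the kernel part is a Sylow subgroup of the kernel
  set Z := ψ.ker.map P.subtype with hZdef
  have hZker : Z ≤ φ.ker := by
    rintro _ ⟨z, hz, rfl⟩
    exact congrArg Subtype.val hz
  have hmemZ : ∀ x ∈ P, φ x = 1 → x ∈ Z := fun x hx h' => ⟨⟨x, hx⟩, Subtype.ext h', rfl⟩
  have hcard_le : ∀ R : Subgroup ↥H, IsPGroup 3 R → R ≤ φ.ker → Nat.card R ≤ Nat.card Z := fun R hR hRk => by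
    obtain ⟨d, hd⟩ := hPsyl R hR (fun x hx => by rw [Subgroup.mem_comap, hRk hx]; exact one_mem Q) le_top
    have hle : R.map (MulAut.conj d).toMonoidHom ≤ Z := by
      rintro _ ⟨x, hx, rfl⟩
      exact hmemZ _ (hd x hx) (show φ (d * x * d⁻¹) = 1 by
        rw [map_mul, map_mul, map_inv, (hRk hx : φ x = 1)]; group)
    rw [Nat.card_congr (Subgroup.equivMapOfInjective R (MulAut.conj d).toMonoidHom (MulAut.conj d).injective).toEquiv]
    exact Subgroup.card_le_of_le hle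
  have hbot : ∀ x : ↥H, x ∈ (⊥ : Subgroup (alternatingGroup (Fin r))).comap φ ↔ φ x = 1 := fun x => by
    rw [Subgroup.mem_comap, Subgroup.mem_bot]
  obtain ⟨Z', hZZ', -, hZ'k, hZ'p, -, -, hliftZ⟩ := exists_lift_subgroup φ (ℓ := 3) ⊥ IsPGroup.of_bot ⊤
    (fun y hy => ⟨1, Subgroup.mem_top _, by rw [map_one, Subgroup.mem_bot.1 hy]⟩) Z
    ((hP.to_subgroup ψ.ker).map _) le_top (fun x hx => (hbot x).2 (hZker hx))
  obtain rfl : Z = Z' :=
    Subgroup.eq_of_le_of_card_ge hZZ' (hcard_le Z' hZ'p fun x hx => (hbot x).1 (hZ'k hx))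
  obtain ⟨c₀, hc₀⟩ := hφ (e cc)
  obtain ⟨h4, -, h4N, h4e⟩ := hliftZ c₀ (Subgroup.mem_top _)
    (fun y hy => by rw [Subgroup.mem_bot.1 hy, mul_one, mul_inv_cancel]; exact one_mem _)
  set C := Subgroup.centralizer (Z : Set ↥H) with hCdef
  have hZcard : Nat.card Z ≤ 3 := by
    rwa [← Nat.card_congr (ψ.ker.equivMapOfInjective _ P.subtype_injective).toEquiv]
  have h4C : h4 * h4 ∈ C := sq_mem_centralizer ((hP.to_subgroup ψ.ker).map _) hZcard h4N
  have hPC : P ≤ C := fun x hx => Subgroup.mem_centralizer_iff.2 (by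
    rintro _ ⟨z, hz, rfl⟩
    exact (congrArg Subtype.val (hzc z hz ⟨x, hx⟩)).symm)
  obtain ⟨P', hPP', -, hP'Q, hP'p, -, -, hliftC⟩ := exists_lift_subgroup φ Q hQp C
    (fun y hy => (honto y hy).elim fun x hx => ⟨x, hPC hx.1, hx.2⟩) P hP hPC hPQ
  obtain rfl : P = P' := by
    obtain ⟨d, hd⟩ := hPsyl P' hP'p hP'Q le_top
    refine Subgroup.eq_of_le_of_card_ge hPP' ?_
    rw [Nat.card_congr (Subgroup.equivMapOfInjective P' (MulAut.conj d).toMonoidHom (MulAut.conj d).injective).toEquiv]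
    exact Subgroup.card_le_of_le (by rintro _ ⟨x, hx, rfl⟩; exact hd x hx)
  obtain ⟨hb, hbC, hbN, hbe⟩ := hliftC (h4 * h4) h4C (by
    rw [map_mul, h4e, hc₀, ← map_mul]; exact hQnorm _ hnorm_b)
  rw [map_mul, h4e, hc₀, ← map_mul] at hbe
  -- hb inverts and fixes the commutator
  have hfixc : hb * c * hb⁻¹ = c :=
    mul_inv_eq_iff_eq_mul.2 (Subgroup.mem_centralizer_iff.1 hbC c (hmemZ c hcP (congrArg Subtype.val hck))).symm
  have hcen : ∀ x ∈ P, φ x = 1 → ∀ y ∈ P, Commute x y := fun x hx hx1 y hy =>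
    (congrArg Subtype.val (hzc ⟨x, hx⟩ (Subtype.ext hx1) ⟨y, hy⟩)).symm
  have hbP : ∀ x ∈ P, hb * x * hb⁻¹ ∈ P := fun x hx => (Subgroup.mem_normalizer_iff.1 hbN x).1 hx
  have hk1 : φ (u1 * (hb * u1 * hb⁻¹)) = 1 := by
    rw [map_mul, map_mul, map_mul, map_inv, hbe, hu1e, ← map_inv, ← map_mul, ← map_mul, ← map_mul,
      elt_facts.2.2.2.2.2.1, map_one]
  have hk2 : φ (u2⁻¹ * (hb * u2 * hb⁻¹)) = 1 := by
    rw [map_mul, map_mul, map_mul, map_inv, map_inv, hbe, hu2e, ← map_inv, ← map_inv, ← map_mul, ← map_mul,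
      ← map_mul, elt_facts.2.2.2.2.2.2, map_one]
  have ha2 : u2⁻¹ * (hb * u2 * hb⁻¹) ∈ P := mul_mem (inv_mem hu2) (hbP _ hu2)
  have hcinv : c = c⁻¹ := inv_comm_fixed hu1 hu2 (hcen c hcP (congrArg Subtype.val hck)) hfixc
    (hcen _ (mul_mem hu1 (hbP _ hu1)) hk1) (hcen _ ha2 hk2) ha2
  apply hc1
  obtain ⟨k, hk⟩ := hP ⟨c, hcP⟩
  have hk' : c ^ 3 ^ k = 1 := congrArg Subtype.val hk
  have h2 : c ^ 2 = 1 := by rw [sq]; nth_rewrite 1 [hcinv]; exact inv_mul_cancel c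
  have := pow_gcd_eq_one.2 ⟨h2, hk'⟩
  rwa [((by norm_num : Nat.Coprime 2 3).pow_right k).gcd_eq_one, pow_one] at this

end Cfsg.Agent.H88.AltG2
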